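import Mathlib
import Cfsg.Agent.Helper17.SchurCos.CovGen
import Cfsg.Agent.Helper17.SchurCos.An7Up
import Cfsg.Agent.Helper17.TCD.A7C_Chk

/-!
# The sixfold cover of the alternating group of degree 7 (helper17)

A stem extension with cyclic kernel of order six, as a group of pairs of a permutation of the
2160 points of a coset enumeration and an even permutation of degree 7; with the bound of
`SchurCos.An7Up` the Schur multiplier is cyclic of order six.
-/

set_option autoImplicit false

namespace Cfsg.Agent.Helper17.SchurCos.An7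

open Cfsg Cfsg.Agent.Helper17 Cfsg.Agent.Helper17.J1 Cfsg.Agent.Helper17.SchurCos
open Cfsg.Agent.Helper17.TC

/-- the word of the central element -/
def wzL : List ℕ := [0, 3, 3, 0, 2, 2, 0, 3, 3, 0, 2, 2]

/-- the word generating the subgroup of the enumeration -/
def wuL : List ℕ := [0, 2, 0, 2, 0, 2]

/-- the first generating permutation of the points -/
noncomputable def qA : Equiv.Perm (Fin TCD.A7C.cert.N) := pA TCD.A7C.checked

/-- the second generating permutation of the points -/
noncomputable def qB : Equiv.Perm (Fin TCD.A7C.cert.N) := pB TCD.A7C.checked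

set_option maxRecDepth 100000 in
theorem hRG : ∀ r ∈ TCD.A7C.relsL, ev gA gB r = 1 := by decide +kernel

theorem hRQ : ∀ r ∈ TCD.A7C.relsL, ev qA qB r = 1 :=
  fun _ hr => ev_perm_rel TCD.A7C.checked rfl rfl hr

theorem hbound (D : Subgroup (Equiv.Perm (Fin TCD.A7C.cert.N) × ↥(alternatingGroup (Fin 7))))
    (x y : D) (hgenD : Subgroup.closure {x, y} = ⊤)
    (hR : ∀ r ∈ TCD.A7C.relsL, ev x y r = 1) :
    Finite D ∧ Nat.card D ≤ 6 * Nat.card (alternatingGroup (Fin 7)) := by
  obtain ⟨hf, hle⟩ := card_le_of_cert (c := TCD.A7C.cert) TCD.A7C.checked rfl rfl wuL rfl 7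
    (by norm_num) (by decide) x y hgenD hR
  refine ⟨hf, ?_⟩
  rw [card_A7]
  exact hle.trans (by decide)

set_option maxRecDepth 100000 in
theorem hzG : ev gA gB wzL = 1 := by decide +kernel

theorem hz6 : ev qA qB wzL ^ 6 = 1 := by
  have e := ev_perm_rel TCD.A7C.checked rfl rfl (w := poww wzL 6) (by decide)
  rw [ev_poww] at e
  exact e

theorem hz2 : ev qA qB wzL ^ 2 ≠ 1 := by
  have e := ev_perm_ne TCD.A7C.checked rfl rfl (poww wzL 2) [] (by decide) (by decide) 0
    (by decide) (by decide +kernel)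
  rw [ev_poww, ev_nil] at e
  exact e

theorem hz3 : ev qA qB wzL ^ 3 ≠ 1 := by
  have e := ev_perm_ne TCD.A7C.checked rfl rfl (poww wzL 3) [] (by decide) (by decide) 0
    (by decide) (by decide +kernel)
  rw [ev_poww, ev_nil] at e
  exact e

theorem hzA : ev qA qB wzL * qA = qA * ev qA qB wzL := by
  have e := ev_perm_rel TCD.A7C.checked rfl rfl (w := wzL ++ [0] ++ invw wzL ++ [1])
    (by decide)
  rw [ev_append, ev_append, ev_append, ev_invw, ev_cons, ev_nil, ev_cons, ev_nil, mul_one,
    mul_one] at e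
  have e2 : ev qA qB wzL * qA * (ev qA qB wzL)⁻¹ * qA⁻¹ = 1 := e
  exact mul_inv_eq_iff_eq_mul.1 (mul_inv_eq_one.1 e2)

theorem hzB : ev qA qB wzL * qB = qB * ev qA qB wzL := by
  have e := ev_perm_rel TCD.A7C.checked rfl rfl (w := wzL ++ [2] ++ invw wzL ++ [3])
    (by decide)
  rw [ev_append, ev_append, ev_append, ev_invw, ev_cons, ev_nil, ev_cons, ev_nil, mul_one,
    mul_one] at e
  have e2 : ev qA qB wzL * qB * (ev qA qB wzL)⁻¹ * qB⁻¹ = 1 := e
  exact mul_inv_eq_iff_eq_mul.1 (mul_inv_eq_one.1 e2)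

/-- a finite stem extension of the alternating group of degree 7 with cyclic kernel of
order six -/
theorem lower : ∃ (Γ : Type) (_ : Group Γ) (_ : Finite Γ)
    (σ : Γ →* ↥(alternatingGroup (Fin 7))),
    Cfsg.IsStemExtension σ ∧ Nonempty (σ.ker ≃* Multiplicative (ZMod 6)) :=
  exists_cover_of_pres gA gB hgen qA qB TCD.A7C.relsL hbound hRG hRQ CAL CBL (by decide)
    (by decide) wzL hzG hz6 hz2 hz3 hzA hzB

/-- the Schur multiplier of the alternating group of degree 7 is cyclic of order six -/
theorem schur : Cfsg.HasCyclicSchurMultiplier ↥(alternatingGroup (Fin 7)) 6 :=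
  ⟨lower, fun Γ _ _ σ hσ => upper Γ σ hσ⟩

end Cfsg.Agent.Helper17.SchurCos.An7
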