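import Mathlib
import Cfsg.Prelude.Def_KGroupFacts
import Cfsg.Agent.Helper17.SchurCos.Core
import Cfsg.Agent.Helper17.SchurCos.Enc2

/-!
# Stem extensions with kernel of order at most two (helper17)

The setting of `SchurCos.Core`, with a weaker certificate: the abelianised
Reidemeister–Schreier relations show that every Schreier generator of the preimage `Ĥ` of `H`
has image `1` or `ζ` in `Ĥ / Ĥ'`, where `ζ` is the image of the value `z₀` of one relator, and
`ζ² = 1`.  Then `Ĥ = Ĥ' ⟨z₀⟩`, `Ĥ'` is a perfect central extension of `H`, hence isomorphic to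
`H`, and the kernel is `{1, z₀}`.
-/

set_option autoImplicit false

namespace Cfsg.Agent.Helper17.SchurCos

open Cfsg.Agent.Helper17.J1

universe u

section Main2

variable {G : Type u} [Group G] {E : Type u} [Group E]

/-- the certificate: for each non-tree edge a flag (`false`: the edge is trivial, `true`: it
equals the distinguished unknown) and a combination -/
def checkCert2 (B : ℕ) (rows : List (ℕ × ℕ × ℕ)) (i0 : ℕ)
    (cert : List (ℕ × Bool × List (ℕ × ℕ × ℕ))) : Bool :=
  cert.all fun kc => checkRel B rows kc.2.2 [kc.1] (if kc.2.1 then [i0] else [])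

/-- a group with an element `z` of square one such that every element is `1` or `z` is a
quotient of the cyclic group of order two -/
theorem exists_surj_zmod_two {K : Type*} [Group K] (z : K) (hz : z ^ 2 = 1)
    (hall : ∀ k : K, k = 1 ∨ k = z) :
    ∃ π : Multiplicative (ZMod 2) →* K, Function.Surjective π := by
  have hv : ∀ x y : ZMod 2, (x + y).val = (x.val + y.val) % 2 := by decide
  have hmod : ∀ m : ℕ, z ^ (m % 2) = z ^ m := by
    intro m
    conv_rhs => rw [← Nat.mod_add_div m 2, pow_add, pow_mul, hz, one_pow, mul_one]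
  let π : Multiplicative (ZMod 2) →* K :=
    MonoidHom.mk' (fun x => z ^ (Multiplicative.toAdd x).val) (by
      intro x y
      show z ^ (Multiplicative.toAdd x + Multiplicative.toAdd y).val = _
      rw [hv, hmod, pow_add])
  refine ⟨π, fun k => ?_⟩
  rcases hall k with h | h
  · exact ⟨1, (map_one π).trans h.symm⟩
  · refine ⟨Multiplicative.ofAdd 1, ?_⟩
    show z ^ (1 : ZMod 2).val = k
    have : (1 : ZMod 2).val = 1 := by decide
    rw [this, pow_one, h]

/-- **Criterion for kernels of order at most two.** -/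
theorem ker_le_two_of_cert [Finite E] (σ : E →* G) (hσ : Cfsg.IsStemExtension σ)
    (H : Subgroup G)
    (hH : ∀ (Γ : Type u) [Group Γ] [Finite Γ] (τ : Γ →* ↥H),
      Cfsg.IsStemExtension τ → τ.ker = ⊥)
    (a b : G) (hgen : Subgroup.closure {a, b} = ⊤)
    (CA CB : List (List ℕ × List ℕ)) (hCA : cev a b CA = a) (hCB : cev a b CB = b)
    (R : List (List ℕ)) (hR : ∀ r ∈ R, ev a b r = 1)
    (n : ℕ) (t : ℕ → List ℕ) (tab : ℕ → ℕ → ℕ) (tm : ℕ → Bool)
    (ht0 : t 0 = []) (hn : 0 < n)
    (hS : ∀ c < n, ∀ l < 4, ev a b (t c) * cols a b l * (ev a b (t (tab c l)))⁻¹ ∈ H)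
    (hT : ∀ c < n, ev a b (t c) ∈ H → c = 0)
    (B : ℕ) (basis : List (ℕ × ℕ)) (j0 : ℕ) (hj0 : j0 < R.length)
    (cert : List (ℕ × Bool × List (ℕ × ℕ × ℕ))) (lam2 : List (ℕ × ℕ × ℕ))
    (h1 : tabOK n tab = true) (h2 : treeOK n t tab tm = true)
    (h3 : wordsOK R = true) (h3' : wordsOK [cw CA ++ [1], cw CB ++ [3]] = true)
    (h4 : basis.all (fun cj => eqnOK tab tm n R [cw CA ++ [1], cw CB ++ [3]] cj.1 cj.2) = true)
    (h5 : checkCert2 B (rowsOf B tab tm n R [cw CA ++ [1], cw CB ++ [3]] basis) (2 * n + j0)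
      cert = true)
    (h5' : checkRel B (rowsOf B tab tm n R [cw CA ++ [1], cw CB ++ [3]] basis) lam2
      [2 * n + j0, 2 * n + j0] [] = true)
    (h6 : cert.map Prod.fst = (List.range (2 * n)).filter (fun e => !tm e)) :
    ∃ π : Multiplicative (ZMod 2) →* σ.ker, Function.Surjective π := by
  obtain ⟨X, Y, hX, hY, hgenE, hXA, hYB⟩ := exists_lifts σ hσ a b hgen CA CB hCA hCB
  obtain ⟨hs, hc, hd⟩ := hσ
  have htab : ∀ c < n, (∀ l < 4, tab c l < n) ∧ ∀ g < 2, tab (tab c (2 * g + 1)) (2 * g) = c := by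
    intro c hcn
    have := List.all_eq_true.1 h1 c (List.mem_range.2 hcn)
    rw [Bool.and_eq_true] at this
    refine ⟨fun l hl => ?_, fun g hg => ?_⟩
    · have h' := List.all_eq_true.1 this.1 l (List.mem_range.2 hl)
      exact of_decide_eq_true h'
    · have h' := List.all_eq_true.1 this.2 g (List.mem_range.2 hg)
      exact beq_iff_eq.1 h'
  have hp : Pkg σ H X Y a b n t tab :=
    ⟨hX, hY, hgenE, ht0, hn, fun c hcn => (htab c hcn).1, hS, hT⟩
  have hcons : ∀ c < n, ∀ g < 2, tab (tab c (2 * g + 1)) (2 * g) = c := fun c hcn => (htab c hcn).2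
  have htm := tree_sch X Y h2
  have hw4 : ∀ {L : List (List ℕ)}, wordsOK L = true → ∀ r ∈ L, ∀ l ∈ r, l < 4 := by
    intro L hL r hr l hl
    exact of_decide_eq_true (List.all_eq_true.1 (List.all_eq_true.1 hL r hr) l hl)
  have hR1 : ∀ r ∈ [cw CA ++ [1], cw CB ++ [3]], ev X Y r = 1 := by
    intro r hr
    rcases List.mem_cons.1 hr with rfl | hr
    · rw [ev_append, ev_cw, hXA, ev_cons, ev_nil, mul_one]
      show X * X⁻¹ = 1
      exact mul_inv_cancel X
    · rw [List.mem_singleton] at hr
      subst hr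
      rw [ev_append, ev_cw, hYB, ev_cons, ev_nil, mul_one]
      show Y * Y⁻¹ = 1
      exact mul_inv_cancel Y
  -- the homomorphism to the abelianisation
  let φ : ↥(H.comap σ) →* Abelianization ↥(H.comap σ) := Abelianization.of
  have hgood : ∀ r ∈ rowsOf B tab tm n R [cw CA ++ [1], cw CB ++ [3]] basis,
      Good (unk φ X Y n t tab R) B (2 * n + R.length) r := by
    intro r hr
    obtain ⟨cj, hcj, rfl⟩ := List.mem_map.1 hr
    obtain ⟨e1, e2, e3⟩ := eqn_valid hp φ R [cw CA ++ [1], cw CB ++ [3]] tm hcons htm hc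
      (hw4 h3) (hw4 h3') hR hR1 cj.1 cj.2 (List.all_eq_true.1 h4 cj hcj)
    exact ⟨_, _, rfl, rfl, le_rfl, e2, e3, e1⟩
  -- the distinguished element
  have hmem0 : R.getD j0 [] ∈ R := by
    rw [List.getD_eq_getElem _ _ hj0]
    exact List.getElem_mem hj0
  have hz0k : ev X Y (R.getD j0 []) ∈ σ.ker := by
    rw [MonoidHom.mem_ker, map_ev, hX, hY]
    exact hR _ hmem0
  have hz0H : ev X Y (R.getD j0 []) ∈ H.comap σ := by
    rw [Subgroup.mem_comap, MonoidHom.mem_ker.1 hz0k]
    exact H.one_mem
  have hU0 : unk φ X Y n t tab R (2 * n + j0) = φ ⟨ev X Y (R.getD j0 []), hz0H⟩ := by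
    rw [unk, if_neg (by omega), Nat.add_sub_cancel_left, ext_of_mem φ hz0H]
  generalize hz0 : ev X Y (R.getD j0 []) = z0 at hz0k hz0H hU0
  have hζ2 : φ ⟨z0, hz0H⟩ ^ 2 = 1 := by
    have h := checkRel_sound (unk φ X Y n t tab R) B (2 * n + R.length) _ hgood lam2
      [2 * n + j0, 2 * n + j0] []
      (by
        intro i hi
        simp only [List.mem_cons, List.not_mem_nil, or_false, or_self] at hi
        omega)
      (by intro i hi; cases hi) h5'
    rw [List.map_cons, List.map_cons, List.map_nil, List.prod_cons, List.prod_cons,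
      List.prod_nil, mul_one, hU0] at h
    rw [pow_two]
    exact h
  have hgen0 : ∀ c < n, ∀ g < 2, ext φ (sch X Y t tab c (2 * g)) = 1 ∨
      ext φ (sch X Y t tab c (2 * g)) = φ ⟨z0, hz0H⟩ := by
    intro c hcn g hg
    by_cases htmv : tm (2 * c + g) = true
    · left
      rw [htm c hcn g hg htmv, ext_one]
    · rw [← unk_edge φ R hcn hg]
      have hmem : (2 * c + g) ∈ cert.map Prod.fst := by
        rw [h6, List.mem_filter, List.mem_range]
        refine ⟨by omega, ?_⟩
        simpa using htmv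
      obtain ⟨kc, hkc, hk⟩ := List.mem_map.1 hmem
      have hchk := List.all_eq_true.1 h5 kc hkc
      have h := checkRel_sound (unk φ X Y n t tab R) B (2 * n + R.length) _ hgood kc.2.2
        [kc.1] (if kc.2.1 then [2 * n + j0] else [])
        (by
          intro i hi
          rw [List.mem_singleton] at hi
          omega)
        (by
          intro i hi
          split_ifs at hi
          · rw [List.mem_singleton] at hi
            omega
          · cases hi) hchk
      rw [hk, List.map_cons, List.map_nil, List.prod_cons, List.prod_nil, mul_one] at h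
      by_cases hflag : kc.2.1 = true
      · right
        rw [if_pos hflag, List.map_cons, List.map_nil, List.prod_cons, List.prod_nil, mul_one,
          hU0] at h
        exact h
      · left
        rw [if_neg hflag, List.map_nil, List.prod_nil] at h
        exact h
  set ζ := φ ⟨z0, hz0H⟩ with hζ
  have hall : ∀ c < n, ∀ l < 4, ext φ (sch X Y t tab c l) ∈ Subgroup.zpowers ζ := by
    intro c hcn l hl
    obtain ⟨g, hg, rfl | rfl⟩ : ∃ g < 2, l = 2 * g ∨ l = 2 * g + 1 := ⟨l / 2, by omega, by omega⟩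
    · rcases hgen0 c hcn g hg with h | h
      · rw [h]; exact Subgroup.one_mem _
      · rw [h]; exact Subgroup.mem_zpowers ζ
    · have hinv : sch X Y t tab c (2 * g + 1) = (sch X Y t tab (tab c (2 * g + 1)) (2 * g))⁻¹ := by
        rw [sch, sch, hcons c hcn g hg, cols_odd g hg]
        group
      have hc' := hp.htab c hcn (2 * g + 1) hl
      rw [hinv, ext_inv φ (sch_mem hp hc' (by omega))]
      apply Subgroup.inv_mem
      rcases hgen0 _ hc' g hg with h | h
      · rw [h]; exact Subgroup.one_mem _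
      · rw [h]; exact Subgroup.mem_zpowers ζ
  have hφ : ∀ h : ↥(H.comap σ), φ h ∈ Subgroup.zpowers ζ := by
    intro h
    have hle : Subgroup.closure {e | ∃ c < n, ∃ l < 4, e = sch X Y t tab c l} ≤
        ((Subgroup.zpowers ζ).comap φ).map (H.comap σ).subtype := by
      rw [Subgroup.closure_le]
      rintro e ⟨c, hcn, l, hl, rfl⟩
      have hm := sch_mem hp hcn hl
      refine ⟨⟨_, hm⟩, ?_, rfl⟩
      show φ (⟨_, hm⟩ : ↥(H.comap σ)) ∈ Subgroup.zpowers ζ
      rw [← ext_of_mem φ hm]
      exact hall c hcn l hl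
    obtain ⟨k, hk, hk'⟩ := hle (schreier hp h.2)
    have : k = h := Subtype.ext hk'
    rw [← this]
    exact hk
  -- the restriction of `σ` to the preimage
  let τ : ↥(H.comap σ) →* ↥H := σ.subgroupComap H
  have hτs : Function.Surjective τ := MonoidHom.subgroupComap_surjective_of_surjective σ H hs
  have hτval : ∀ h : ↥(H.comap σ), ((τ h : ↥H) : G) = σ h.1 := fun h => rfl
  have hτc : τ.ker ≤ Subgroup.center ↥(H.comap σ) := by
    intro z hz
    rw [MonoidHom.mem_ker] at hz
    have hz' : σ z.1 = 1 := by rw [← hτval, hz]; rfl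
    have hzc := Subgroup.mem_center_iff.1 (hc (MonoidHom.mem_ker.2 hz'))
    rw [Subgroup.mem_center_iff]
    intro g
    exact Subtype.ext (hzc g.1)
  let z0' : ↥(H.comap σ) := ⟨z0, hz0H⟩
  have hτz : τ z0' = 1 := by
    apply Subtype.ext
    rw [hτval]
    exact MonoidHom.mem_ker.1 hz0k
  -- the commutator subgroup of the preimage
  let D : Subgroup ↥(H.comap σ) := commutator ↥(H.comap σ)
  have hD : ∀ h : ↥(H.comap σ), h ∈ D ↔ φ h = 1 := by
    intro h
    show h ∈ commutator ↥(H.comap σ) ↔ _
    rw [← Abelianization.ker_of, MonoidHom.mem_ker]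
  have hdec : ∀ h : ↥(H.comap σ), ∃ d ∈ D, τ d = τ h := by
    intro h
    obtain ⟨k, hk⟩ := Subgroup.mem_zpowers_iff.1 (hφ h)
    refine ⟨h * (z0' ^ k)⁻¹, ?_, ?_⟩
    · rw [hD, map_mul, map_inv, map_zpow, hk, mul_inv_cancel]
    · rw [map_mul, map_inv, map_zpow, hτz, one_zpow, inv_one, mul_one]
  have hDperf : D ≤ ⁅D, D⁆ := by
    show commutator ↥(H.comap σ) ≤ ⁅D, D⁆
    rw [commutator_def, Subgroup.commutator_le]
    intro g _ h _
    obtain ⟨d1, hd1, e1⟩ := hdec g
    obtain ⟨d2, hd2, e2⟩ := hdec h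
    rw [commutatorElement_def, comm_eq_of_map_eq τ hτc e1.symm e2.symm, ← commutatorElement_def]
    exact Subgroup.commutator_mem_commutator hd1 hd2
  let τ' : ↥D →* ↥H := τ.comp D.subtype
  have hτ' : Cfsg.IsStemExtension τ' := by
    refine ⟨fun y => ?_, ?_, ?_⟩
    · obtain ⟨g, hg⟩ := hτs y
      obtain ⟨d, hd', e⟩ := hdec g
      exact ⟨⟨d, hd'⟩, e.trans hg⟩
    · intro z hz
      rw [MonoidHom.mem_ker] at hz
      have hz' : z.1 ∈ τ.ker := MonoidHom.mem_ker.2 hz
      have hzc := Subgroup.mem_center_iff.1 (hτc hz')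
      rw [Subgroup.mem_center_iff]
      intro g
      exact Subtype.ext (hzc g.1)
    · have htop : commutator ↥D = ⊤ := by
        rw [eq_top_iff]
        intro d _
        have hmap : (commutator ↥D).map D.subtype = ⁅D, D⁆ := by
          rw [commutator_def, Subgroup.map_commutator, ← MonoidHom.range_eq_map,
            Subgroup.range_subtype]
        have hd1 : d.1 ∈ (commutator ↥D).map D.subtype := by
          rw [hmap]
          exact hDperf d.2
        obtain ⟨d', hd', e⟩ := Subgroup.mem_map.1 hd1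
        have : d' = d := Subtype.ext e
        rwa [this] at hd'
      rw [htop]
      exact le_top
  have hk' := hH ↥D τ' hτ'
  have hKD : ∀ h : ↥(H.comap σ), h ∈ D → σ h.1 = 1 → h = 1 := by
    intro h hhD hh1
    have : (⟨h, hhD⟩ : ↥D) ∈ τ'.ker := by
      rw [MonoidHom.mem_ker]
      apply Subtype.ext
      show σ h.1 = 1
      exact hh1
    rw [hk', Subgroup.mem_bot] at this
    exact congrArg Subtype.val this
  -- the kernel is `{1, z0}`
  have hzsq : z0 ^ 2 = 1 := by
    have h1' : z0' ^ 2 = 1 := by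
      apply hKD
      · rw [hD, map_pow]
        exact hζ2
      · show σ (z0 ^ 2) = 1
        rw [map_pow, MonoidHom.mem_ker.1 hz0k, one_pow]
    exact congrArg Subtype.val h1'
  have hker : ∀ k ∈ σ.ker, k = 1 ∨ k = z0 := by
    intro k hk
    have hkH : k ∈ H.comap σ := by
      rw [Subgroup.mem_comap, MonoidHom.mem_ker.1 hk]
      exact H.one_mem
    obtain ⟨m, hm⟩ := Subgroup.mem_zpowers_iff.1 (hφ ⟨k, hkH⟩)
    have hm2 : ζ ^ m = 1 ∨ ζ ^ m = ζ := by
      have e : ζ ^ m = ζ ^ (m % 2) := by
        conv_lhs => rw [← Int.emod_add_mul_ediv m 2, zpow_add, zpow_mul]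
        rw [zpow_ofNat, hζ2, one_zpow, mul_one]
      rcases Int.emod_two_eq_zero_or_one m with h | h
      · left; rw [e, h, zpow_zero]
      · right; rw [e, h, zpow_one]
    rcases hm2 with h | h
    · left
      have := hKD ⟨k, hkH⟩ ((hD _).2 (hm.symm.trans h)) (MonoidHom.mem_ker.1 hk)
      exact congrArg Subtype.val this
    · right
      have h1' : (⟨k, hkH⟩ : ↥(H.comap σ)) * z0'⁻¹ = 1 := by
        apply hKD
        · rw [hD, map_mul, map_inv, ← hm, h]
          exact mul_inv_cancel ζ
        · show σ (k * z0⁻¹) = 1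
          rw [map_mul, map_inv, MonoidHom.mem_ker.1 hk, MonoidHom.mem_ker.1 hz0k, inv_one,
            mul_one]
      have h2' : k * z0⁻¹ = 1 := congrArg Subtype.val h1'
      exact mul_inv_eq_one.1 h2'
  refine exists_surj_zmod_two (⟨z0, hz0k⟩ : σ.ker) (Subtype.ext hzsq) (fun k => ?_)
  rcases hker k.1 k.2 with h | h
  · left; exact Subtype.ext h
  · right; exact Subtype.ext h

end Main2

end Cfsg.Agent.Helper17.SchurCos
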