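import Mathlib
import Cfsg.Prelude.Def_Sporadic_a
import Cfsg.Prelude.Def_Spor_Mathieu
import Cfsg.Prelude.Def_KGroupFacts
import Cfsg.Agent.Helper28.M24Gen
import Cfsg.Agent.Helper28.M12Data
import Cfsg.Agent.Helper17.M11.SchurM11
import Cfsg.Agent.Helper17.SchurCos.Stem
import Cfsg.Agent.Helper17.SchurCos.Core2
import Cfsg.Agent.Helper17.SchurCos.M12D

/-!
# The kernels of the stem extensions of `M₁₂` have order at most two (helper17)

`M₁₂ = ⟨a, b⟩` with the point stabiliser `M₁₁` of index 12; the criterion of `SchurCos.Core2`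
applies with the triviality of the multiplier of `M₁₁`.
-/

set_option autoImplicit false

namespace Cfsg.Agent.Helper17.SchurCos.M12

open Cfsg Cfsg.Agent.Helper28 Cfsg.Agent.Helper28.Golay Cfsg.Agent.Helper17.J1
open Cfsg.Agent.Helper17.SchurCos
open scoped Pointwise

theorem tabsOK : inM24 Ta = true ∧ inM24 Tai = true ∧ inM24 Tb = true ∧ inM24 Tbi = true := by
  decide +kernel

theorem invOK : comp Ta Tai = idT ∧ comp Tb Tbi = idT := by decide +kernel

theorem dodOK : permMask (tf Ta) d0 = d0 ∧ permMask (tf Tb) d0 = d0 := by decide +kernel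

theorem DmOK : Dm < 2 ^ 24 := by decide +kernel

theorem toSet_Dm : toSet Dm = {(some 0 : GolayPt)} := by decide +kernel

theorem mem_M12 (x : Equiv.Perm GolayPt) :
    x ∈ Spor.M12 ↔ x ∈ Cfsg.M24 ∧ x • toSet d0 = toSet d0 := by
  rw [toSet_d0]
  constructor
  · intro h
    obtain ⟨h3, h4⟩ := Subgroup.mem_inf.1 h
    exact ⟨h3, MulAction.mem_stabilizer_iff.1 h4⟩
  · rintro ⟨h1, h2⟩
    exact Subgroup.mem_inf.2 ⟨h1, MulAction.mem_stabilizer_iff.2 h2⟩

theorem permOf_mem_M12 {T : List Nat} (h : inM24 T = true) (hd : permMask (tf T) d0 = d0) :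
    permOf T ∈ Spor.M12 := by
  rw [mem_M12]
  exact ⟨permOf_mem_M24 h, by rw [smul_toSet_permOf (isPerm_of_inM24 h), hd]⟩

/-- the generators -/
noncomputable def ga : ↥Spor.M12 := ⟨permOf Ta, permOf_mem_M12 tabsOK.1 dodOK.1⟩

noncomputable def gb : ↥Spor.M12 := ⟨permOf Tb, permOf_mem_M12 tabsOK.2.2.1 dodOK.2⟩

/-- the point stabiliser `M₁₁` inside `M₁₂` -/
noncomputable def H12 : Subgroup ↥Spor.M12 := Spor.M11.subgroupOf Spor.M12

theorem M11_le_M12 : Spor.M11 ≤ Spor.M12 := by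
  intro g hg
  exact (Subgroup.mem_inf.1 hg).1

theorem mem_H12 (x : ↥Spor.M12) :
    x ∈ H12 ↔ (x : Equiv.Perm GolayPt) • toSet Dm = toSet Dm := by
  rw [H12, Subgroup.mem_subgroupOf, toSet_Dm, Finset.smul_finset_singleton, Finset.singleton_inj]
  constructor
  · intro h
    exact MulAction.mem_stabilizer_iff.1 (Subgroup.mem_inf.1 h).2
  · intro h
    exact Subgroup.mem_inf.2 ⟨x.2, MulAction.mem_stabilizer_iff.2 h⟩

theorem stem_H12 : StemTrivial ↥H12 :=
  (stemTrivial_of_hasCyclic Cfsg.Agent.Helper17.M11S.schur_M11).of_equiv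
    (Subgroup.subgroupOfEquivOfLe M11_le_M12)

/-! ### words and tables -/

theorem coe_ev' (w : List ℕ) :
    ((ev ga gb w : ↥Spor.M12) : Equiv.Perm GolayPt) = permOf (evT Ta Tai Tb Tbi w) := by
  rw [coe_ev]
  exact ev_permOf (isPerm_of_inM24 tabsOK.1) (isPerm_of_inM24 tabsOK.2.1)
    (isPerm_of_inM24 tabsOK.2.2.1) (isPerm_of_inM24 tabsOK.2.2.2) invOK.1 invOK.2 w

theorem isPerm_ev (w : List ℕ) : isPerm (evT Ta Tai Tb Tbi w) = true :=
  isPerm_evT (isPerm_of_inM24 tabsOK.1) (isPerm_of_inM24 tabsOK.2.1)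
    (isPerm_of_inM24 tabsOK.2.2.1) (isPerm_of_inM24 tabsOK.2.2.2) w

theorem isPerm_col (l : ℕ) : isPerm (colsT Ta Tai Tb Tbi l) = true :=
  isPerm_colsT (isPerm_of_inM24 tabsOK.1) (isPerm_of_inM24 tabsOK.2.1)
    (isPerm_of_inM24 tabsOK.2.2.1) (isPerm_of_inM24 tabsOK.2.2.2) l

theorem coe_cols' (l : ℕ) :
    ((cols ga gb l : ↥Spor.M12) : Equiv.Perm GolayPt) = permOf (colsT Ta Tai Tb Tbi l) := by
  have h := cols_permOf (isPerm_of_inM24 tabsOK.1) (isPerm_of_inM24 tabsOK.2.1)
    (isPerm_of_inM24 tabsOK.2.2.1) (isPerm_of_inM24 tabsOK.2.2.2) invOK.1 invOK.2 l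
  rw [← h]
  rcases l with _ | _ | _ | _ | l <;> rfl

theorem relT : ∀ r ∈ relsL, evT Ta Tai Tb Tbi r = idT := by decide +kernel

theorem cwT : evT Ta Tai Tb Tbi (cw CAL) = Ta ∧ evT Ta Tai Tb Tbi (cw CBL) = Tb := by
  decide +kernel

theorem ev_eq_one_of_table {w : List ℕ} (h : evT Ta Tai Tb Tbi w = idT) : ev ga gb w = 1 := by
  apply Subtype.ext
  rw [coe_ev', h, permOf_idT]
  rfl

theorem hR : ∀ r ∈ relsL, ev ga gb r = 1 := fun r hr => ev_eq_one_of_table (relT r hr)

theorem hCA : cev ga gb CAL = ga := by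
  rw [← ev_cw]
  apply Subtype.ext
  rw [coe_ev', cwT.1]
  rfl

theorem hCB : cev ga gb CBL = gb := by
  rw [← ev_cw]
  apply Subtype.ext
  rw [coe_ev', cwT.2]
  rfl

/-! ### the coset data -/

/-- the representatives -/
def tF (c : ℕ) : List ℕ := wordF twN c

theorem chkII : (List.range nC).all (fun c => (List.range 4).all fun l =>
    permMask (tf (colsT Ta Tai Tb Tbi l)) (maskF dmN (tabF tabN c l)) == maskF dmN c) = true := by
  decide +kernel

theorem chkIII : (List.range nC).all (fun c => (maskF dmN c != Dm || c == 0)) = true := by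
  decide +kernel

theorem chk0' : tF 0 = [] ∧ maskF dmN 0 = Dm := by decide +kernel

theorem hpar : parOK nC tF (tabF tabN) (parF parN) = true := by decide +kernel

theorem h1 : tabOK nC (tabF tabN) = true := by decide +kernel

theorem h2 : treeOK nC tF (tabF tabN) (tmF tmN) = true := by decide +kernel

theorem h3 : wordsOK relsL = true := by decide +kernel

theorem h3' : wordsOK [cw CAL ++ [1], cw CBL ++ [3]] = true := by decide +kernel

theorem h4 : basisL.all (fun cj => eqnOK (tabF tabN) (tmF tmN) nC relsL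
    [cw CAL ++ [1], cw CBL ++ [3]] cj.1 cj.2) = true := by decide +kernel

theorem h5 : checkCert2 BB (rowsOf BB (tabF tabN) (tmF tmN) nC relsL
    [cw CAL ++ [1], cw CBL ++ [3]] basisL) (2 * nC + j0) cert2 = true := by decide +kernel

theorem h5' : checkRel BB (rowsOf BB (tabF tabN) (tmF tmN) nC relsL
    [cw CAL ++ [1], cw CBL ++ [3]] basisL) lam2 [2 * nC + j0, 2 * nC + j0] [] = true := by
  decide +kernel

theorem h6 : cert2.map Prod.fst = (List.range (2 * nC)).filter (fun e => !tmF tmN e) := by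
  decide +kernel

theorem smul_col {c : ℕ} (hc : c < nC) {l : ℕ} (hl : l < 4) :
    ((cols ga gb l : ↥Spor.M12) : Equiv.Perm GolayPt) • toSet (maskF dmN (tabF tabN c l)) =
      toSet (maskF dmN c) := by
  have e2 := List.all_eq_true.1 (List.all_eq_true.1 chkII c (List.mem_range.2 hc)) l
    (List.mem_range.2 hl)
  rw [coe_cols', smul_toSet_permOf (isPerm_col l), beq_iff_eq.1 e2]

theorem smul_rep : ∀ c < nC,
    ((ev ga gb (tF c) : ↥Spor.M12) : Equiv.Perm GolayPt) • toSet (maskF dmN c) = toSet Dm := by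
  apply tree_induction hpar
  · rw [chk0'.1, chk0'.2, ev_nil]
    exact one_smul _ _
  · intro p hp l hl _ ht hP
    rw [ht, ev_append, ev_cons, ev_nil, mul_one, Subgroup.coe_mul, mul_smul, smul_col hp hl, hP]

theorem hS : ∀ c < nC, ∀ l < 4,
    ev ga gb (tF c) * cols ga gb l * (ev ga gb (tF (tabF tabN c l)))⁻¹ ∈ H12 := by
  intro c hc l hl
  have hc' : tabF tabN c l < nC := tabOK_lt h1 c hc l hl
  rw [mem_H12, Subgroup.coe_mul, Subgroup.coe_mul, Subgroup.coe_inv, mul_smul, mul_smul]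
  have e1 : ((ev ga gb (tF (tabF tabN c l)) : ↥Spor.M12) : Equiv.Perm GolayPt)⁻¹ • toSet Dm =
      toSet (maskF dmN (tabF tabN c l)) := by
    rw [inv_smul_eq_iff, smul_rep _ hc']
  rw [e1, smul_col hc hl, smul_rep c hc]

theorem hT : ∀ c < nC, ev ga gb (tF c) ∈ H12 → c = 0 := by
  intro c hc hmem
  rw [mem_H12] at hmem
  have h := smul_left_cancel _ ((smul_rep c hc).trans hmem.symm)
  have e := List.all_eq_true.1 chkIII c (List.mem_range.2 hc)
  rw [Bool.or_eq_true, bne_iff_ne, beq_iff_eq] at e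
  have := toSet_inj (maskF_lt dmN c) DmOK h
  rcases e with e' | e'
  · exact absurd this e'
  · exact e'

/-! ### generation -/

set_option maxRecDepth 1000000 in
theorem slpOK : ((ch12.flatMap fun lv => lv.2.1).all fun T =>
    (slpRun slpP [Ta, Tb]).contains T) = true := by decide +kernel

theorem M12_le : Spor.M12 ≤ Subgroup.closure {permOf Ta, permOf Tb} := by
  set S := Subgroup.closure ({permOf Ta, permOf Tb} : Set (Equiv.Perm GolayPt)) with hS
  have hU := slp_mem S [Ta, Tb] (by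
    intro T hT
    rcases List.mem_cons.1 hT with rfl | hT
    · exact ⟨isPerm_of_inM24 tabsOK.1, Subgroup.subset_closure (by simp)⟩
    · rw [List.mem_singleton] at hT
      subst hT
      exact ⟨isPerm_of_inM24 tabsOK.2.2.1, Subgroup.subset_closure (by simp)⟩) slpP _ slpOK
  have hG : GS [d0] [] ≤ S := chain_le [d0] S ch12 [] lv12 fin12
    (fun lv hlv T hT => hU T (List.mem_flatMap.2 ⟨lv, hlv, hT⟩))
  intro g hg
  apply hG
  rw [mem_GS]
  have := (mem_M12 g).1 hg
  refine ⟨this.1, fun m hm => ?_, fun i hi => absurd hi List.not_mem_nil⟩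
  rw [List.mem_singleton] at hm
  subst hm
  exact this.2

theorem hgen : Subgroup.closure {ga, gb} = ⊤ := by
  rw [eq_top_iff]
  intro g _
  have h1 : (g : Equiv.Perm GolayPt) ∈ (Subgroup.closure {ga, gb}).map Spor.M12.subtype := by
    rw [MonoidHom.map_closure, Set.image_pair]
    exact M12_le g.2
  obtain ⟨g', hg', e⟩ := Subgroup.mem_map.1 h1
  have : g' = g := Subtype.ext e
  rwa [this] at hg'

/-- the kernel of every finite stem extension of `M₁₂` is a quotient of the cyclic group of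
order two -/
theorem upper (Γ : Type) [Group Γ] [Finite Γ] (σ : Γ →* ↥Spor.M12)
    (hσ : Cfsg.IsStemExtension σ) :
    ∃ π : Multiplicative (ZMod 2) →* σ.ker, Function.Surjective π :=
  ker_le_two_of_cert σ hσ H12 stem_H12 ga gb hgen CAL CBL hCA hCB relsL hR nC tF
    (tabF tabN) (tmF tmN) chk0'.1 (by decide) hS hT BB basisL j0 (by decide) cert2 lam2
    h1 h2 h3 h3' h4 h5 h5' h6

end Cfsg.Agent.Helper17.SchurCos.M12
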