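import Mathlib
import Cfsg.Prelude.Def_KGroupFacts
import Cfsg.Prelude.Def_SporadicCombinatorics
import Cfsg.Agent.Helper17.TGolayAut
import Cfsg.Agent.Helper17.SchurCos.M12Main

/-!
# A double cover of `M₁₂` (helper17)

The monomial automorphisms of the ternary Golay code act on the 24 signed coordinates; the
subgroup of `Perm (signed coordinates) × M₁₂` generated by two pairs of compatible elements
projects onto `M₁₂` with kernel `{1, -1}`, central and inside the commutator subgroup.  Together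
with `M12.upper` this gives the Schur multiplier of `M₁₂`.
-/

set_option autoImplicit false

namespace Cfsg.Agent.Helper17.SchurCos.M12

open Cfsg Cfsg.Agent.Helper28 Cfsg.Agent.Helper28.Golay Cfsg.Agent.Helper17.J1
open Cfsg.Agent.Helper17.SchurCos Cfsg.Agent.Helper17.Mono
open Cfsg.Agent.Helper17.TGolay (enc info ixN ptN code_eq_span mem_iff diag_kernel)

/-- signed coordinates -/
abbrev SPt : Type := ArrayPt × (ZMod 3)ˣ

def sAL : List ℕ := [10, 2, 1, 8, 4, 6, 5, 7, 3, 9, 0, 11]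
def sAiL : List ℕ := [10, 2, 1, 8, 4, 6, 5, 7, 3, 9, 0, 11]
def cAL : List ℕ := [2, 1, 1, 2, 1, 2, 2, 1, 2, 1, 2, 1]
def sBL : List ℕ := [10, 0, 9, 2, 6, 8, 7, 4, 11, 3, 1, 5]
def sBiL : List ℕ := [1, 10, 3, 9, 7, 11, 4, 6, 5, 2, 0, 8]
def cBL : List ℕ := [2, 2, 2, 1, 1, 2, 1, 1, 2, 2, 1, 1]
def betaL : List ℕ := [0, 1, 2, 3, 4, 12, 13, 8, 9, 18, 6, 16]
def uW : List ℕ := [3, 0, 3, 0, 2, 0, 3, 0, 3, 0, 3, 0]
def vW : List ℕ := [2, 0, 2, 0, 3, 0, 2, 0, 2, 0, 2, 0]

def fA (p : ArrayPt) : ArrayPt := ptN (sAL.getD (ixN p) 0)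
def fAi (p : ArrayPt) : ArrayPt := ptN (sAiL.getD (ixN p) 0)
def cA (p : ArrayPt) : (ZMod 3)ˣ := if cAL.getD (ixN p) 0 = 2 then -1 else 1
def fB (p : ArrayPt) : ArrayPt := ptN (sBL.getD (ixN p) 0)
def fBi (p : ArrayPt) : ArrayPt := ptN (sBiL.getD (ixN p) 0)
def cB (p : ArrayPt) : (ZMod 3)ˣ := if cBL.getD (ixN p) 0 = 2 then -1 else 1

set_option maxHeartbeats 0 in
theorem dataA : (∀ p : ArrayPt, fAi (fA p) = p ∧ fA (fAi p) = p) ∧
    (∀ j : Fin 6, ∀ p : ArrayPt,
      enc (info (fun p => (cA p : ZMod 3) * Cfsg.Agent.Helper17.TGolay.G j (fAi p))) p =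
        (cA p : ZMod 3) * Cfsg.Agent.Helper17.TGolay.G j (fAi p)) := by
  decide +kernel

set_option maxHeartbeats 0 in
theorem dataB : (∀ p : ArrayPt, fBi (fB p) = p ∧ fB (fBi p) = p) ∧
    (∀ j : Fin 6, ∀ p : ArrayPt,
      enc (info (fun p => (cB p : ZMod 3) * Cfsg.Agent.Helper17.TGolay.G j (fBi p))) p =
        (cB p : ZMod 3) * Cfsg.Agent.Helper17.TGolay.G j (fBi p)) := by
  decide +kernel

def σA : Equiv.Perm ArrayPt := ⟨fA, fAi, fun p => (dataA.1 p).1, fun p => (dataA.1 p).2⟩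

def σB : Equiv.Perm ArrayPt := ⟨fB, fBi, fun p => (dataB.1 p).1, fun p => (dataB.1 p).2⟩

theorem presA : (σA, cA) ∈ Pres ternaryGolayCode := by
  apply pres_of_span code_eq_span
  rintro x ⟨j, rfl⟩
  rw [mem_iff]
  refine ⟨info (monomialMap σA cA (Cfsg.Agent.Helper17.TGolay.G j)), ?_⟩
  funext p
  exact dataA.2 j p

theorem presB : (σB, cB) ∈ Pres ternaryGolayCode := by
  apply pres_of_span code_eq_span
  rintro x ⟨j, rfl⟩
  rw [mem_iff]
  refine ⟨info (monomialMap σB cB (Cfsg.Agent.Helper17.TGolay.G j)), ?_⟩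
  funext p
  exact dataB.2 j p

/-! ### monomial pairs as permutations of the signed coordinates -/

/-- the permutation of the signed coordinates induced by a monomial pair -/
def toP (f : Equiv.Perm ArrayPt × (ArrayPt → (ZMod 3)ˣ)) : Equiv.Perm SPt where
  toFun q := (f.1 q.1, f.2 (f.1 q.1) * q.2)
  invFun q := (f.1.symm q.1, (f.2 q.1)⁻¹ * q.2)
  left_inv q := by
    apply Prod.ext
    · simp
    · simp
  right_inv q := by
    apply Prod.ext
    · simp
    · simp

theorem toP_apply (f : Equiv.Perm ArrayPt × (ArrayPt → (ZMod 3)ˣ)) (q : SPt) :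
    toP f q = (f.1 q.1, f.2 (f.1 q.1) * q.2) := rfl

theorem toP_mul (f g : Equiv.Perm ArrayPt × (ArrayPt → (ZMod 3)ˣ)) :
    toP (f.1 * g.1, fun i => f.2 i * g.2 (f.1.symm i)) = toP f * toP g := by
  apply Equiv.ext
  intro q
  apply Prod.ext
  · rfl
  · show f.2 ((f.1 * g.1) q.1) * g.2 (f.1.symm ((f.1 * g.1) q.1)) * q.2 =
      f.2 (f.1 (g.1 q.1)) * (g.2 (g.1 q.1) * q.2)
    rw [Equiv.Perm.mul_apply, Equiv.symm_apply_apply, mul_assoc]

theorem toP_one : toP ((1 : Equiv.Perm ArrayPt), fun _ => (1 : (ZMod 3)ˣ)) = 1 := by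
  apply Equiv.ext
  intro q
  apply Prod.ext
  · rfl
  · exact one_mul _

theorem toP_inv (f : Equiv.Perm ArrayPt × (ArrayPt → (ZMod 3)ˣ)) :
    toP (f.1⁻¹, fun i => (f.2 (f.1 i))⁻¹) = (toP f)⁻¹ := by
  apply eq_inv_of_mul_eq_one_left
  apply Equiv.ext
  intro q
  apply Prod.ext
  · show f.1⁻¹ (f.1 q.1) = q.1
    simp
  · show (f.2 (f.1 (f.1⁻¹ (f.1 q.1))))⁻¹ * (f.2 (f.1 q.1) * q.2) = q.2
    simp

/-- the central involution -/
def zP : Equiv.Perm SPt := toP ((1 : Equiv.Perm ArrayPt), fun _ => (-1 : (ZMod 3)ˣ))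

theorem zP_apply (q : SPt) : zP q = (q.1, -q.2) := by
  show ((1 : Equiv.Perm ArrayPt) q.1, (-1 : (ZMod 3)ˣ) * q.2) = _
  rw [Equiv.Perm.one_apply, neg_one_mul]

theorem zP_ne_one : zP ≠ 1 := by
  intro h
  have h1 : (zP (((0 : Fin 4), (0 : ZMod 3)), (1 : (ZMod 3)ˣ))).2 = 1 := by rw [h]; rfl
  rw [zP_apply] at h1
  have h2 : ((-1 : (ZMod 3)ˣ) : ZMod 3) = ((1 : (ZMod 3)ˣ) : ZMod 3) := congrArg Units.val h1
  rw [Units.val_neg, Units.val_one] at h2
  exact absurd h2 (by decide)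

theorem zP_comm (f : Equiv.Perm ArrayPt × (ArrayPt → (ZMod 3)ˣ)) : zP * toP f = toP f * zP := by
  apply Equiv.ext
  intro q
  rw [Equiv.Perm.mul_apply, Equiv.Perm.mul_apply, zP_apply, zP_apply, toP_apply, toP_apply]
  show (f.1 q.1, -(f.2 (f.1 q.1) * q.2)) = (f.1 q.1, f.2 (f.1 q.1) * -q.2)
  rw [mul_neg]

/-! ### the identification of the coordinates with the dodecad -/

/-- the point of the dodecad of a coordinate -/
def β (p : ArrayPt) : GolayPt := pt (betaL.getD (ixN p) 0)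

theorem betaOK : (∀ p : ArrayPt, betaL.getD (ixN p) 0 < 24) ∧
    (∀ p q : ArrayPt, betaL.getD (ixN p) 0 = betaL.getD (ixN q) 0 → p = q) ∧
    (∀ p : ArrayPt, betaL.getD (ixN (fA p)) 0 = tf Ta (betaL.getD (ixN p) 0)) ∧
    (∀ p : ArrayPt, betaL.getD (ixN (fB p)) 0 = tf Tb (betaL.getD (ixN p) 0)) := by
  decide +kernel

theorem β_inj : Function.Injective β := by
  intro p q h
  have h1 := congrArg idx h
  rw [β, β, idx_pt _ (betaOK.1 p), idx_pt _ (betaOK.1 q)] at h1
  exact betaOK.2.1 p q h1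

theorem β_A (p : ArrayPt) : β (σA p) = (ga : Equiv.Perm GolayPt) (β p) := by
  show pt (betaL.getD (ixN (fA p)) 0) = permOf Ta (pt (betaL.getD (ixN p) 0))
  rw [permOf_pt (isPerm_of_inM24 tabsOK.1) (betaOK.1 p), betaOK.2.2.1 p]

theorem β_B (p : ArrayPt) : β (σB p) = (gb : Equiv.Perm GolayPt) (β p) := by
  show pt (betaL.getD (ixN (fB p)) 0) = permOf Tb (pt (betaL.getD (ixN p) 0))
  rw [permOf_pt (isPerm_of_inM24 tabsOK.2.2.1) (betaOK.1 p), betaOK.2.2.2 p]

/-! ### the cover -/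

/-- the ambient group -/
abbrev Big : Type := Equiv.Perm SPt × ↥Spor.M12

/-- the invariant: the first component is a monomial automorphism of the code whose
permutation part corresponds to the second component -/
def Q (x : Big) : Prop :=
  ∃ f ∈ Pres ternaryGolayCode, x.1 = toP f ∧
    ∀ p, β (f.1 p) = ((x.2 : ↥Spor.M12) : Equiv.Perm GolayPt) (β p)

noncomputable def xA : Big := (toP (σA, cA), ga)

noncomputable def xB : Big := (toP (σB, cB), gb)

/-- the double cover -/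
noncomputable def Γ : Subgroup Big := Subgroup.closure {xA, xB}

theorem Q_of_mem : ∀ x ∈ Γ, Q x := by
  intro x hx
  induction hx using Subgroup.closure_induction with
  | mem x hx =>
    rcases hx with rfl | rfl
    · exact ⟨(σA, cA), presA, rfl, β_A⟩
    · exact ⟨(σB, cB), presB, rfl, β_B⟩
  | one => exact ⟨(1, fun _ => 1), pres_one, toP_one.symm, fun p => rfl⟩
  | mul x y _ _ hx hy =>
    obtain ⟨f, hf, e1, e2⟩ := hx
    obtain ⟨g, hg, e3, e4⟩ := hy
    refine ⟨_, pres_mul hf hg, ?_, fun p => ?_⟩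
    · rw [toP_mul, ← e1, ← e3]
      rfl
    · show β (f.1 (g.1 p)) = ((x.2 * y.2 : ↥Spor.M12) : Equiv.Perm GolayPt) (β p)
      rw [Subgroup.coe_mul, Equiv.Perm.mul_apply, ← e4, ← e2]
  | inv x _ hx =>
    obtain ⟨f, hf, e1, e2⟩ := hx
    refine ⟨_, pres_inv hf, ?_, fun p => ?_⟩
    · rw [toP_inv, ← e1]
      rfl
    · show β (f.1⁻¹ p) = ((x.2⁻¹ : ↥Spor.M12) : Equiv.Perm GolayPt) (β p)
      rw [Subgroup.coe_inv, Equiv.Perm.eq_inv_iff_eq, ← e2]
      simp

theorem ker_cases {x : Big} (hx : x ∈ Γ) (h : x.2 = 1) : x = 1 ∨ x = (zP, 1) := by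
  obtain ⟨f, hf, e1, e2⟩ := Q_of_mem x hx
  obtain ⟨s, c⟩ := f
  have hs : s = 1 := by
    apply Equiv.ext
    intro p
    apply β_inj
    rw [e2 p, h]
    rfl
  subst hs
  rcases diag_kernel c hf with hc | hc
  · left
    apply Prod.ext
    · rw [e1]
      have : c = fun _ => 1 := funext hc
      rw [this]
      exact toP_one
    · exact h
  · right
    apply Prod.ext
    · rw [e1]
      have : c = fun _ => -1 := funext hc
      rw [this]
      rfl
    · exact h

/-! ### the central element as a commutator -/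

def FA (q : SPt) : SPt := (fA q.1, cA (fA q.1) * q.2)
def FAi (q : SPt) : SPt := (fAi q.1, (cA q.1)⁻¹ * q.2)
def FB (q : SPt) : SPt := (fB q.1, cB (fB q.1) * q.2)
def FBi (q : SPt) : SPt := (fBi q.1, (cB q.1)⁻¹ * q.2)

def colF : ℕ → SPt → SPt
  | 0 => FA
  | 1 => FAi
  | 2 => FB
  | 3 => FBi
  | _ => id

def evF : List ℕ → SPt → SPt
  | [] => id
  | l :: w => fun q => colF l (evF w q)

theorem cols_apply (l : ℕ) (q : SPt) :
    cols (toP (σA, cA)) (toP (σB, cB)) l q = colF l q := by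
  rcases l with _ | _ | _ | _ | l <;> rfl

theorem ev_apply (w : List ℕ) (q : SPt) :
    ev (toP (σA, cA)) (toP (σB, cB)) w q = evF w q := by
  induction w generalizing q with
  | nil => rfl
  | cons l w ih =>
    rw [ev_cons, Equiv.Perm.mul_apply, ih, cols_apply]
    rfl

/-- the commutator word -/
def WW : List ℕ := cw [(uW, vW)]

set_option maxHeartbeats 0 in
theorem WOK : ∀ q : SPt, evF WW q = (q.1, -q.2) := by decide +kernel

theorem WT : evT Ta Tai Tb Tbi WW = idT := by decide +kernel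

noncomputable def yA : ↥Γ := ⟨xA, Subgroup.subset_closure (Set.mem_insert _ _)⟩

noncomputable def yB : ↥Γ :=
  ⟨xB, Subgroup.subset_closure (Set.mem_insert_of_mem _ (Set.mem_singleton _))⟩

theorem evW_val : ((ev yA yB WW : ↥Γ) : Big) = (zP, 1) := by
  rw [coe_ev]
  have k1 : ∀ w : List ℕ, ev (MonoidHom.fst (Equiv.Perm SPt) ↥Spor.M12 xA)
      (MonoidHom.fst (Equiv.Perm SPt) ↥Spor.M12 xB) w = ev (toP (σA, cA)) (toP (σB, cB)) w :=
    fun _ => rfl
  have k2 : ∀ w : List ℕ, ev (MonoidHom.snd (Equiv.Perm SPt) ↥Spor.M12 xA)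
      (MonoidHom.snd (Equiv.Perm SPt) ↥Spor.M12 xB) w = ev ga gb w :=
    fun _ => rfl
  have e1 : ∀ w : List ℕ, (ev (yA : Big) (yB : Big) w).1 = ev (toP (σA, cA)) (toP (σB, cB)) w :=
    fun w => (map_ev (MonoidHom.fst (Equiv.Perm SPt) ↥Spor.M12) xA xB w).trans (k1 w)
  have e2 : ∀ w : List ℕ, (ev (yA : Big) (yB : Big) w).2 = ev ga gb w :=
    fun w => (map_ev (MonoidHom.snd (Equiv.Perm SPt) ↥Spor.M12) xA xB w).trans (k2 w)
  apply Prod.ext
  · rw [e1]
    apply Equiv.ext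
    intro q
    rw [ev_apply, WOK, zP_apply]
  · rw [e2]
    exact ev_eq_one_of_table WT

theorem evW_comm : ev yA yB WW ∈ commutator ↥Γ := by
  rw [WW, ev_cw, cev, List.map_cons, List.map_nil, List.prod_cons, List.prod_nil, mul_one,
    commutator_def, ← commutatorElement_def]
  exact Subgroup.commutator_mem_commutator (Subgroup.mem_top _) (Subgroup.mem_top _)

/-- a finite stem extension of `M₁₂` with kernel of order two -/
theorem lower : ∃ (Γ' : Type) (_ : Group Γ') (_ : Finite Γ') (σ : Γ' →* ↥Spor.M12),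
    Cfsg.IsStemExtension σ ∧ Nonempty (σ.ker ≃* Multiplicative (ZMod 2)) := by
  let σ : ↥Γ →* ↥Spor.M12 := (MonoidHom.snd (Equiv.Perm SPt) ↥Spor.M12).comp Γ.subtype
  have hσ : ∀ x : ↥Γ, σ x = (x : Big).2 := fun x => rfl
  have hZ : ((ev yA yB WW : ↥Γ) : Big) = (zP, 1) := evW_val
  have hZc : ev yA yB WW ∈ commutator ↥Γ := evW_comm
  generalize ev yA yB WW = Z at hZ hZc
  have hZk : Z ∈ σ.ker := by
    rw [MonoidHom.mem_ker, hσ, hZ]
  have hker : ∀ x : ↥Γ, x ∈ σ.ker → x = 1 ∨ x = Z := by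
    intro x hx
    rcases ker_cases x.2 (MonoidHom.mem_ker.1 hx) with h | h
    · left; exact Subtype.ext h
    · right; exact Subtype.ext (h.trans hZ.symm)
  have hZne : Z ≠ 1 := by
    intro h
    have h1 : (Z : Big).1 = 1 := by rw [h]; rfl
    rw [hZ] at h1
    exact zP_ne_one h1
  have hZcent : Z ∈ Subgroup.center ↥Γ := by
    rw [Subgroup.mem_center_iff]
    intro g
    apply Subtype.ext
    show (g : Big) * (Z : Big) = (Z : Big) * (g : Big)
    rw [hZ]
    obtain ⟨f, hf, e1, e2⟩ := Q_of_mem g.1 g.2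
    apply Prod.ext
    · show (g : Big).1 * zP = zP * (g : Big).1
      rw [e1, zP_comm]
    · show (g : Big).2 * 1 = 1 * (g : Big).2
      rw [mul_one, one_mul]
  refine ⟨↥Γ, inferInstance, inferInstance, σ, ⟨?_, ?_, ?_⟩, ?_⟩
  · intro m
    have hm : m ∈ Subgroup.closure {ga, gb} := by
      rw [hgen]
      exact Subgroup.mem_top m
    have hmap : Γ.map (MonoidHom.snd (Equiv.Perm SPt) ↥Spor.M12) = Subgroup.closure {ga, gb} := by
      rw [Γ, MonoidHom.map_closure, Set.image_pair]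
      rfl
    rw [← hmap] at hm
    obtain ⟨x, hx, e⟩ := Subgroup.mem_map.1 hm
    exact ⟨⟨x, hx⟩, e⟩
  · intro x hx
    rcases hker x hx with rfl | rfl
    · exact Subgroup.one_mem _
    · exact hZcent
  · intro x hx
    rcases hker x hx with rfl | rfl
    · exact Subgroup.one_mem _
    · exact hZc
  · have hcard : Nat.card σ.ker = 2 := by
      rw [Nat.card_eq_two_iff]
      refine ⟨1, ⟨Z, hZk⟩, ?_, ?_⟩
      · intro h
        exact hZne (congrArg Subtype.val h).symm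
      · ext k
        simp only [Set.mem_insert_iff, Set.mem_singleton_iff, Set.mem_univ, iff_true]
        rcases hker k.1 k.2 with h | h
        · left; exact Subtype.ext h
        · right; exact Subtype.ext h
    have : Fact (Nat.Prime 2) := ⟨Nat.prime_two⟩
    exact ⟨mulEquivOfPrimeCardEq hcard (by simp [Nat.card_eq_fintype_card])⟩

/-- the Schur multiplier of `M₁₂` is cyclic of order two -/
theorem schur_M12 : Cfsg.HasCyclicSchurMultiplier ↥Spor.M12 2 :=
  ⟨lower, fun Γ' _ _ σ hσ => upper Γ' σ hσ⟩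

end Cfsg.Agent.Helper17.SchurCos.M12
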