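import Mathlib
import Cfsg.Agent.Helper17.SchurCos.Num
import Cfsg.Agent.Helper17.SchurCos.M23Data
import Cfsg.Agent.Helper17.SchurCos.M23C4

/-! Check of a certificate chunk (helper17, generated). -/

set_option autoImplicit false

namespace Cfsg.Agent.Helper17.SchurCos.M23

open Cfsg.Agent.Helper17.SchurCos

set_option maxRecDepth 1000000 in
theorem chk4_0 : checkTargets BB (rowsOf BB (tabF tabN) (tmF tmN) nC relsL
    [cw CAL ++ [1], cw CBL ++ [3]] basisL) (decCert cert4_0) = true := by
  decide +kernel

set_option maxRecDepth 1000000 in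
theorem chk4_1 : checkTargets BB (rowsOf BB (tabF tabN) (tmF tmN) nC relsL
    [cw CAL ++ [1], cw CBL ++ [3]] basisL) (decCert cert4_1) = true := by
  decide +kernel

set_option maxRecDepth 1000000 in
theorem chk4_2 : checkTargets BB (rowsOf BB (tabF tabN) (tmF tmN) nC relsL
    [cw CAL ++ [1], cw CBL ++ [3]] basisL) (decCert cert4_2) = true := by
  decide +kernel

set_option maxRecDepth 1000000 in
theorem chk4_3 : checkTargets BB (rowsOf BB (tabF tabN) (tmF tmN) nC relsL
    [cw CAL ++ [1], cw CBL ++ [3]] basisL) (decCert cert4_3) = true := by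
  decide +kernel

set_option maxRecDepth 1000000 in
theorem chk4_4 : checkTargets BB (rowsOf BB (tabF tabN) (tmF tmN) nC relsL
    [cw CAL ++ [1], cw CBL ++ [3]] basisL) (decCert cert4_4) = true := by
  decide +kernel

set_option maxRecDepth 1000000 in
theorem chk4_5 : checkTargets BB (rowsOf BB (tabF tabN) (tmF tmN) nC relsL
    [cw CAL ++ [1], cw CBL ++ [3]] basisL) (decCert cert4_5) = true := by
  decide +kernel

theorem chk4 : checkTargets BB (rowsOf BB (tabF tabN) (tmF tmN) nC relsL
    [cw CAL ++ [1], cw CBL ++ [3]] basisL) (decCert cert4) = true := by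
  simp only [cert4, decCert_append, checkTargets_append, chk4_0, chk4_1, chk4_2, chk4_3, chk4_4, chk4_5, Bool.and_self]

end Cfsg.Agent.Helper17.SchurCos.M23
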