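import Mathlib
import Cfsg.Agent.Helper17.SchurCos.Num
import Cfsg.Agent.Helper17.SchurCos.M23Data
import Cfsg.Agent.Helper17.SchurCos.M23C5

/-! Check of a certificate chunk (helper17, generated). -/

set_option autoImplicit false

namespace Cfsg.Agent.Helper17.SchurCos.M23

open Cfsg.Agent.Helper17.SchurCos

set_option maxRecDepth 1000000 in
theorem chk5_0 : checkTargets BB (rowsOf BB (tabF tabN) (tmF tmN) nC relsL
    [cw CAL ++ [1], cw CBL ++ [3]] basisL) (decCert cert5_0) = true := by
  decide +kernel

set_option maxRecDepth 1000000 in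
theorem chk5_1 : checkTargets BB (rowsOf BB (tabF tabN) (tmF tmN) nC relsL
    [cw CAL ++ [1], cw CBL ++ [3]] basisL) (decCert cert5_1) = true := by
  decide +kernel

set_option maxRecDepth 1000000 in
theorem chk5_2 : checkTargets BB (rowsOf BB (tabF tabN) (tmF tmN) nC relsL
    [cw CAL ++ [1], cw CBL ++ [3]] basisL) (decCert cert5_2) = true := by
  decide +kernel

set_option maxRecDepth 1000000 in
theorem chk5_3 : checkTargets BB (rowsOf BB (tabF tabN) (tmF tmN) nC relsL
    [cw CAL ++ [1], cw CBL ++ [3]] basisL) (decCert cert5_3) = true := by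
  decide +kernel

set_option maxRecDepth 1000000 in
theorem chk5_4 : checkTargets BB (rowsOf BB (tabF tabN) (tmF tmN) nC relsL
    [cw CAL ++ [1], cw CBL ++ [3]] basisL) (decCert cert5_4) = true := by
  decide +kernel

set_option maxRecDepth 1000000 in
theorem chk5_5 : checkTargets BB (rowsOf BB (tabF tabN) (tmF tmN) nC relsL
    [cw CAL ++ [1], cw CBL ++ [3]] basisL) (decCert cert5_5) = true := by
  decide +kernel

theorem chk5 : checkTargets BB (rowsOf BB (tabF tabN) (tmF tmN) nC relsL
    [cw CAL ++ [1], cw CBL ++ [3]] basisL) (decCert cert5) = true := by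
  simp only [cert5, decCert_append, checkTargets_append, chk5_0, chk5_1, chk5_2, chk5_3, chk5_4, chk5_5, Bool.and_self]

end Cfsg.Agent.Helper17.SchurCos.M23
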