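import Mathlib
import Cfsg.Agent.Helper17.SchurCos.Num
import Cfsg.Agent.Helper17.SchurCos.M23Data
import Cfsg.Agent.Helper17.SchurCos.M23C6

/-! Check of a certificate chunk (helper17, generated). -/

set_option autoImplicit false

namespace Cfsg.Agent.Helper17.SchurCos.M23

open Cfsg.Agent.Helper17.SchurCos

set_option maxRecDepth 1000000 in
theorem chk6_0 : checkTargets BB (rowsOf BB (tabF tabN) (tmF tmN) nC relsL
    [cw CAL ++ [1], cw CBL ++ [3]] basisL) (decCert cert6_0) = true := by
  decide +kernel

set_option maxRecDepth 1000000 in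
theorem chk6_1 : checkTargets BB (rowsOf BB (tabF tabN) (tmF tmN) nC relsL
    [cw CAL ++ [1], cw CBL ++ [3]] basisL) (decCert cert6_1) = true := by
  decide +kernel

set_option maxRecDepth 1000000 in
theorem chk6_2 : checkTargets BB (rowsOf BB (tabF tabN) (tmF tmN) nC relsL
    [cw CAL ++ [1], cw CBL ++ [3]] basisL) (decCert cert6_2) = true := by
  decide +kernel

set_option maxRecDepth 1000000 in
theorem chk6_3 : checkTargets BB (rowsOf BB (tabF tabN) (tmF tmN) nC relsL
    [cw CAL ++ [1], cw CBL ++ [3]] basisL) (decCert cert6_3) = true := by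
  decide +kernel

set_option maxRecDepth 1000000 in
theorem chk6_4 : checkTargets BB (rowsOf BB (tabF tabN) (tmF tmN) nC relsL
    [cw CAL ++ [1], cw CBL ++ [3]] basisL) (decCert cert6_4) = true := by
  decide +kernel

set_option maxRecDepth 1000000 in
theorem chk6_5 : checkTargets BB (rowsOf BB (tabF tabN) (tmF tmN) nC relsL
    [cw CAL ++ [1], cw CBL ++ [3]] basisL) (decCert cert6_5) = true := by
  decide +kernel

set_option maxRecDepth 1000000 in
theorem chk6_6 : checkTargets BB (rowsOf BB (tabF tabN) (tmF tmN) nC relsL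
    [cw CAL ++ [1], cw CBL ++ [3]] basisL) (decCert cert6_6) = true := by
  decide +kernel

theorem chk6 : checkTargets BB (rowsOf BB (tabF tabN) (tmF tmN) nC relsL
    [cw CAL ++ [1], cw CBL ++ [3]] basisL) (decCert cert6) = true := by
  simp only [cert6, decCert_append, checkTargets_append, chk6_0, chk6_1, chk6_2, chk6_3, chk6_4, chk6_5, chk6_6, Bool.and_self]

end Cfsg.Agent.Helper17.SchurCos.M23
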