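import Mathlib
import Cfsg.Prelude.Def_Spor_Mathieu
import Cfsg.Prelude.Def_KGroupFacts
import Cfsg.Agent.Helper28.M24Gen
import Cfsg.Agent.Helper17.M11.SchurM11
import Cfsg.Agent.Helper17.SchurCos.Stem
import Cfsg.Agent.Helper17.SchurCos.M23Data
import Cfsg.Agent.Helper17.SchurCos.M23K0
import Cfsg.Agent.Helper17.SchurCos.M23K1
import Cfsg.Agent.Helper17.SchurCos.M23K2
import Cfsg.Agent.Helper17.SchurCos.M23K3
import Cfsg.Agent.Helper17.SchurCos.M23K4
import Cfsg.Agent.Helper17.SchurCos.M23K5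
import Cfsg.Agent.Helper17.SchurCos.M23K6
import Cfsg.Agent.Helper17.SchurCos.M23K7

/-!
# The Schur multiplier of `M₂₃` is trivial (helper17)

`M₂₃ = ⟨a, b⟩` with a subgroup `H ≅ M₁₁` of index 1288 (the stabiliser of a dodecad through the
fixed point); the criterion of `SchurCos.Core` applies with the known triviality for `M₁₁`.
-/

set_option autoImplicit false

namespace Cfsg.Agent.Helper17.SchurCos.M23

open Cfsg Cfsg.Agent.Helper28 Cfsg.Agent.Helper28.Golay Cfsg.Agent.Helper17.J1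
open Cfsg.Agent.Helper17.SchurCos
open scoped Pointwise

theorem tabsOK : inM24 Ta = true ∧ inM24 Tai = true ∧ inM24 Tb = true ∧ inM24 Tbi = true ∧
    inM24 Tk = true ∧ inM24 Tki = true := by decide +kernel

theorem invOK : comp Ta Tai = idT ∧ comp Tb Tbi = idT ∧ comp Tk Tki = idT ∧ comp Tki Tk = idT := by
  decide +kernel

theorem fixOK : tf Ta 23 = 23 ∧ tf Tb 23 = 23 ∧ tf Tk 23 = 0 ∧ permMask (tf Tk) Dm = d0 ∧
    Dm < 2 ^ 24 := by decide +kernel

theorem pt23 : pt 23 = (none : GolayPt) := by decide +kernel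

theorem pt0 : pt 0 = (some 0 : GolayPt) := by decide +kernel

theorem mem_M23 (g : Equiv.Perm GolayPt) : g ∈ Spor.M23 ↔ g ∈ M24 ∧ g none = none := by
  rw [Spor.M23, Subgroup.mem_inf, MulAction.mem_stabilizer_iff]
  rfl

theorem permOf_mem_M23 {T : List Nat} (h : inM24 T = true) (h23 : tf T 23 = 23) :
    permOf T ∈ Spor.M23 := by
  rw [mem_M23]
  refine ⟨permOf_mem_M24 h, ?_⟩
  rw [← pt23, permOf_pt (isPerm_of_inM24 h) (by norm_num), h23]

/-- the generators -/
noncomputable def ga : ↥Spor.M23 := ⟨permOf Ta, permOf_mem_M23 tabsOK.1 fixOK.1⟩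

noncomputable def gb : ↥Spor.M23 := ⟨permOf Tb, permOf_mem_M23 tabsOK.2.2.1 fixOK.2.1⟩

/-- the conjugating element -/
noncomputable def κ : Equiv.Perm GolayPt := permOf Tk

theorem κ_mem : κ ∈ M24 := permOf_mem_M24 tabsOK.2.2.2.2.1

theorem κ_none : κ none = some 0 := by
  rw [← pt23, κ, permOf_pt (isPerm_of_inM24 tabsOK.2.2.2.2.1) (by norm_num), fixOK.2.2.1, pt0]

theorem κ_smul : κ • toSet Dm = toSet d0 := by
  rw [κ, smul_toSet_permOf (isPerm_of_inM24 tabsOK.2.2.2.2.1), fixOK.2.2.2.1]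

/-- the conjugate of `M₁₁` inside `M₂₃` -/
noncomputable def K : Subgroup (Equiv.Perm GolayPt) :=
  Spor.M11.map (MulAut.conj κ⁻¹).toMonoidHom

theorem mem_K (g : Equiv.Perm GolayPt) : g ∈ K ↔ κ * g * κ⁻¹ ∈ Spor.M11 := by
  constructor
  · rintro ⟨m, hm, rfl⟩
    have : κ * ((MulAut.conj κ⁻¹).toMonoidHom m) * κ⁻¹ = m := by
      show κ * (κ⁻¹ * m * κ⁻¹⁻¹) * κ⁻¹ = m
      group
    rwa [this]
  · intro h
    refine ⟨κ * g * κ⁻¹, h, ?_⟩
    show κ⁻¹ * (κ * g * κ⁻¹) * κ⁻¹⁻¹ = g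
    group

theorem K_iff (g : Equiv.Perm GolayPt) :
    g ∈ K ↔ g ∈ M24 ∧ g • toSet Dm = toSet Dm ∧ g none = none := by
  rw [mem_K, Cfsg.Agent.Helper17.M11S.mem_M11]
  have e1 : κ * g * κ⁻¹ ∈ M24 ↔ g ∈ M24 := by
    constructor
    · intro h
      have := M24.mul_mem (M24.mul_mem (M24.inv_mem κ_mem) h) κ_mem
      have e : κ⁻¹ * (κ * g * κ⁻¹) * κ = g := by group
      rwa [e] at this
    · intro h
      exact M24.mul_mem (M24.mul_mem κ_mem h) (M24.inv_mem κ_mem)
  have e2 : (κ * g * κ⁻¹) • toSet d0 = toSet d0 ↔ g • toSet Dm = toSet Dm := by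
    rw [← κ_smul, mul_smul, mul_smul, inv_smul_smul]
    exact ⟨fun h => smul_left_cancel κ h, fun h => by rw [h]⟩
  have e3 : (κ * g * κ⁻¹) (some 0) = some 0 ↔ g none = none := by
    have hk : κ⁻¹ (some 0) = none := by
      rw [Equiv.Perm.inv_eq_iff_eq, κ_none]
    rw [Equiv.Perm.mul_apply, Equiv.Perm.mul_apply, hk, ← κ_none]
    exact ⟨fun h => κ.injective h, fun h => by rw [h]⟩
  rw [e1, e2, e3]

theorem K_le : K ≤ Spor.M23 := by
  intro g hg
  rw [K_iff] at hg
  exact (mem_M23 g).2 ⟨hg.1, hg.2.2⟩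

/-- the subgroup `H ≅ M₁₁` of `M₂₃` -/
noncomputable def H23 : Subgroup ↥Spor.M23 := K.subgroupOf Spor.M23

theorem mem_H23 (x : ↥Spor.M23) :
    x ∈ H23 ↔ (x : Equiv.Perm GolayPt) • toSet Dm = toSet Dm := by
  rw [H23, Subgroup.mem_subgroupOf, K_iff]
  have := (mem_M23 x.1).1 x.2
  exact ⟨fun h => h.2.1, fun h => ⟨this.1, h, this.2⟩⟩

theorem stem_H23 : StemTrivial ↥H23 := by
  have e1 : ↥H23 ≃* ↥K := Subgroup.subgroupOfEquivOfLe K_le
  have e2 : ↥Spor.M11 ≃* ↥K :=
    Subgroup.equivMapOfInjective Spor.M11 (MulAut.conj κ⁻¹).toMonoidHom (MulEquiv.injective _)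
  exact (stemTrivial_of_hasCyclic Cfsg.Agent.Helper17.M11S.schur_M11).of_equiv (e1.trans e2.symm)

/-! ### words and tables -/

theorem coe_ev' (w : List ℕ) :
    ((ev ga gb w : ↥Spor.M23) : Equiv.Perm GolayPt) = permOf (evT Ta Tai Tb Tbi w) := by
  rw [coe_ev]
  exact ev_permOf (isPerm_of_inM24 tabsOK.1) (isPerm_of_inM24 tabsOK.2.1)
    (isPerm_of_inM24 tabsOK.2.2.1) (isPerm_of_inM24 tabsOK.2.2.2.1) invOK.1 invOK.2.1 w

theorem isPerm_ev (w : List ℕ) : isPerm (evT Ta Tai Tb Tbi w) = true :=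
  isPerm_evT (isPerm_of_inM24 tabsOK.1) (isPerm_of_inM24 tabsOK.2.1)
    (isPerm_of_inM24 tabsOK.2.2.1) (isPerm_of_inM24 tabsOK.2.2.2.1) w

theorem isPerm_col (l : ℕ) : isPerm (colsT Ta Tai Tb Tbi l) = true :=
  isPerm_colsT (isPerm_of_inM24 tabsOK.1) (isPerm_of_inM24 tabsOK.2.1)
    (isPerm_of_inM24 tabsOK.2.2.1) (isPerm_of_inM24 tabsOK.2.2.2.1) l

theorem coe_cols' (l : ℕ) :
    ((cols ga gb l : ↥Spor.M23) : Equiv.Perm GolayPt) = permOf (colsT Ta Tai Tb Tbi l) := by
  have h := cols_permOf (isPerm_of_inM24 tabsOK.1) (isPerm_of_inM24 tabsOK.2.1)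
    (isPerm_of_inM24 tabsOK.2.2.1) (isPerm_of_inM24 tabsOK.2.2.2.1) invOK.1 invOK.2.1 l
  rw [← h]
  rcases l with _ | _ | _ | _ | l <;> rfl

theorem relT : ∀ r ∈ relsL, evT Ta Tai Tb Tbi r = idT := by decide +kernel

theorem cwT : evT Ta Tai Tb Tbi (cw CAL) = Ta ∧ evT Ta Tai Tb Tbi (cw CBL) = Tb := by
  decide +kernel

theorem hR : ∀ r ∈ relsL, ev ga gb r = 1 := by
  intro r hr
  apply Subtype.ext
  rw [coe_ev', relT r hr, permOf_idT]
  rfl

theorem hCA : cev ga gb CAL = ga := by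
  rw [← ev_cw]
  apply Subtype.ext
  rw [coe_ev', cwT.1]
  rfl

theorem hCB : cev ga gb CBL = gb := by
  rw [← ev_cw]
  apply Subtype.ext
  rw [coe_ev', cwT.2]
  rfl

/-! ### the coset data -/

/-- the representatives -/
def tF (c : ℕ) : List ℕ := wordF twN c

set_option maxRecDepth 1000000 in
theorem chkII : (List.range nC).all (fun c => (List.range 4).all fun l =>
    permMask (tf (colsT Ta Tai Tb Tbi l)) (maskF dmN (tabF tabN c l)) == maskF dmN c) = true := by
  decide +kernel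

set_option maxRecDepth 1000000 in
theorem chkIII : (List.range nC).all (fun c => (maskF dmN c != Dm || c == 0)) = true := by
  decide +kernel

theorem chk0' : tF 0 = [] ∧ maskF dmN 0 = Dm := by decide +kernel

set_option maxRecDepth 1000000 in
theorem hpar : parOK nC tF (tabF tabN) (parF parN) = true := by decide +kernel

set_option maxRecDepth 1000000 in
theorem h1 : tabOK nC (tabF tabN) = true := by decide +kernel

set_option maxRecDepth 1000000 in
theorem h2 : treeOK nC tF (tabF tabN) (tmF tmN) = true := by decide +kernel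

theorem h3 : wordsOK relsL = true := by decide +kernel

theorem h3' : wordsOK [cw CAL ++ [1], cw CBL ++ [3]] = true := by decide +kernel

set_option maxRecDepth 1000000 in
theorem h4 : basisL.all (fun cj => eqnOK (tabF tabN) (tmF tmN) nC relsL
    [cw CAL ++ [1], cw CBL ++ [3]] cj.1 cj.2) = true := by decide +kernel

/-- the whole certificate -/
def certAll : List (ℕ × List ℕ) :=
  cert0 ++ cert1 ++ cert2 ++ cert3 ++ cert4 ++ cert5 ++ cert6 ++ cert7

theorem h5 : checkTargets BB (rowsOf BB (tabF tabN) (tmF tmN) nC relsL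
    [cw CAL ++ [1], cw CBL ++ [3]] basisL) (decCert certAll) = true := by
  simp only [certAll, decCert_append, checkTargets_append, chk0, chk1, chk2, chk3, chk4, chk5,
    chk6, chk7, Bool.and_self]

set_option maxRecDepth 1000000 in
theorem h6 : (decCert certAll).map Prod.fst =
    (List.range (2 * nC)).filter (fun e => !tmF tmN e) := by
  rw [decCert_fst]
  decide +kernel

theorem smul_col {c : ℕ} (hc : c < nC) {l : ℕ} (hl : l < 4) :
    ((cols ga gb l : ↥Spor.M23) : Equiv.Perm GolayPt) • toSet (maskF dmN (tabF tabN c l)) =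
      toSet (maskF dmN c) := by
  have e2 := List.all_eq_true.1 (List.all_eq_true.1 chkII c (List.mem_range.2 hc)) l
    (List.mem_range.2 hl)
  rw [coe_cols', smul_toSet_permOf (isPerm_col l), beq_iff_eq.1 e2]

theorem smul_rep : ∀ c < nC,
    ((ev ga gb (tF c) : ↥Spor.M23) : Equiv.Perm GolayPt) • toSet (maskF dmN c) = toSet Dm := by
  apply tree_induction hpar
  · rw [chk0'.1, chk0'.2, ev_nil]
    exact one_smul _ _
  · intro p hp l hl _ ht hP
    rw [ht, ev_append, ev_cons, ev_nil, mul_one, Subgroup.coe_mul, mul_smul, smul_col hp hl, hP]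

theorem hS : ∀ c < nC, ∀ l < 4,
    ev ga gb (tF c) * cols ga gb l * (ev ga gb (tF (tabF tabN c l)))⁻¹ ∈ H23 := by
  intro c hc l hl
  have hc' : tabF tabN c l < nC := tabOK_lt h1 c hc l hl
  rw [mem_H23, Subgroup.coe_mul, Subgroup.coe_mul, Subgroup.coe_inv, mul_smul, mul_smul]
  have e1 : ((ev ga gb (tF (tabF tabN c l)) : ↥Spor.M23) : Equiv.Perm GolayPt)⁻¹ • toSet Dm =
      toSet (maskF dmN (tabF tabN c l)) := by
    rw [inv_smul_eq_iff, smul_rep _ hc']
  rw [e1, smul_col hc hl, smul_rep c hc]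

theorem hT : ∀ c < nC, ev ga gb (tF c) ∈ H23 → c = 0 := by
  intro c hc hmem
  rw [mem_H23] at hmem
  have h := smul_left_cancel _ ((smul_rep c hc).trans hmem.symm)
  have e := List.all_eq_true.1 chkIII c (List.mem_range.2 hc)
  rw [Bool.or_eq_true, bne_iff_ne, beq_iff_eq] at e
  have := toSet_inj (maskF_lt dmN c) fixOK.2.2.2.2 h
  rcases e with e' | e'
  · exact absurd this e'
  · exact e'

/-! ### generation -/

set_option maxRecDepth 1000000 in
theorem slpOK : ((U2 ++ U3 ++ U4 ++ U5 ++ U6 ++ U7).all fun T =>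
    (slpRun slpP [Ta, Tb]).contains T) = true := by decide +kernel

theorem M23_le : Spor.M23 ≤ Subgroup.closure {permOf Ta, permOf Tb} := by
  set S := Subgroup.closure ({permOf Ta, permOf Tb} : Set (Equiv.Perm GolayPt)) with hS
  have hU := slp_mem S [Ta, Tb] (by
    intro T hT
    rcases List.mem_cons.1 hT with rfl | hT
    · exact ⟨isPerm_of_inM24 tabsOK.1, Subgroup.subset_closure (by simp)⟩
    · rw [List.mem_singleton] at hT
      subst hT
      exact ⟨isPerm_of_inM24 tabsOK.2.2.1, Subgroup.subset_closure (by simp)⟩) slpP _ slpOK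
  have h' : ∀ U : List (List Nat), (∀ T ∈ U, T ∈ U2 ++ U3 ++ U4 ++ U5 ++ U6 ++ U7) →
      ∀ T ∈ U, permOf T ∈ S := fun U hU' T hT => hU T (hU' T hT)
  have hG : Gfix [23] ≤ S := by
    refine level_le lv2 S (h' U2 (by intro T hT; simp [hT])) ?_
    refine level_le lv3 S (h' U3 (by intro T hT; simp [hT])) ?_
    refine level_le lv4 S (h' U4 (by intro T hT; simp [hT])) ?_
    refine level_le lv5 S (h' U5 (by intro T hT; simp [hT])) ?_
    refine level_le lv6 S (h' U6 (by intro T hT; simp [hT])) ?_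
    refine level_le lv7 S (h' U7 (by intro T hT; simp [hT])) ?_
    rw [triv_sound lvT]
    exact bot_le
  intro g hg
  apply hG
  rw [mem_Gfix]
  have := (mem_M23 g).1 hg
  refine ⟨this.1, fun i hi => ?_⟩
  rw [List.mem_singleton] at hi
  subst hi
  rw [pt23]
  exact this.2

theorem hgen : Subgroup.closure {ga, gb} = ⊤ := by
  rw [eq_top_iff]
  intro g _
  have h1 : (g : Equiv.Perm GolayPt) ∈ (Subgroup.closure {ga, gb}).map Spor.M23.subtype := by
    rw [MonoidHom.map_closure, Set.image_pair]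
    exact M23_le g.2
  obtain ⟨g', hg', e⟩ := Subgroup.mem_map.1 h1
  have : g' = g := Subtype.ext e
  rwa [this] at hg'

/-- all finite stem extensions of `M₂₃` are injective -/
theorem stem_M23 : StemTrivial ↥Spor.M23 := by
  intro Γ _ _ σ hσ
  exact ker_eq_bot_of_cert σ hσ H23 stem_H23 ga gb hgen CAL CBL hCA hCB relsL hR nC tF
    (tabF tabN) (tmF tmN) chk0'.1 (by decide) hS hT BB basisL (decCert certAll) h1 h2 h3 h3' h4 h5 h6

/-- the Schur multiplier of `M₂₃` is trivial -/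
theorem schur_M23 : Cfsg.HasCyclicSchurMultiplier ↥Spor.M23 1 :=
  Cfsg.Agent.Helper17.J1.hasCyclicSchurMultiplier_one stem_M23

end Cfsg.Agent.Helper17.SchurCos.M23
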