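import Mathlib
import Cfsg.Prelude.Def_Sporadic_a
import Cfsg.Prelude.Def_Spor_Mathieu
import Cfsg.Prelude.Def_KGroupFacts
import Cfsg.Agent.Helper28.M24Gen
import Cfsg.Agent.Helper17.SchurCos.Stem
import Cfsg.Agent.Helper17.SchurCos.M23Main
import Cfsg.Agent.Helper17.SchurCos.M24Data
import Cfsg.Agent.Helper17.SchurCos.M24K0

/-!
# The Schur multiplier of `M₂₄` is trivial (helper17)

`M₂₄ = ⟨a, b⟩` with the point stabiliser `M₂₃` of index 24; the criterion of `SchurCos.Core`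
applies with the triviality for `M₂₃`.
-/

set_option autoImplicit false

namespace Cfsg.Agent.Helper17.SchurCos.M24

open Cfsg Cfsg.Agent.Helper28 Cfsg.Agent.Helper28.Golay Cfsg.Agent.Helper17.J1
open Cfsg.Agent.Helper17.SchurCos
open scoped Pointwise

theorem tabsOK : inM24 Ta = true ∧ inM24 Tai = true ∧ inM24 Tb = true ∧ inM24 Tbi = true := by
  decide +kernel

theorem invOK : comp Ta Tai = idT ∧ comp Tb Tbi = idT := by decide +kernel

theorem DmOK : Dm < 2 ^ 24 := by decide +kernel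

theorem toSet_Dm : toSet Dm = {(none : GolayPt)} := by decide +kernel

/-- the generators -/
noncomputable def ga : ↥Cfsg.M24 := ⟨permOf Ta, permOf_mem_M24 tabsOK.1⟩

noncomputable def gb : ↥Cfsg.M24 := ⟨permOf Tb, permOf_mem_M24 tabsOK.2.2.1⟩

/-- the point stabiliser `M₂₃` inside `M₂₄` -/
noncomputable def H24 : Subgroup ↥Cfsg.M24 := Spor.M23.subgroupOf Cfsg.M24

theorem mem_H24 (x : ↥Cfsg.M24) :
    x ∈ H24 ↔ (x : Equiv.Perm GolayPt) • toSet Dm = toSet Dm := by
  rw [H24, Subgroup.mem_subgroupOf, Cfsg.Agent.Helper17.SchurCos.M23.mem_M23, toSet_Dm,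
    Finset.smul_finset_singleton, Finset.singleton_inj]
  exact ⟨fun h => h.2, fun h => ⟨x.2, h⟩⟩

theorem M23_le_M24 : Spor.M23 ≤ Cfsg.M24 := by
  intro g hg
  exact ((Cfsg.Agent.Helper17.SchurCos.M23.mem_M23 g).1 hg).1

theorem stem_H24 : StemTrivial ↥H24 :=
  Cfsg.Agent.Helper17.SchurCos.M23.stem_M23.of_equiv (Subgroup.subgroupOfEquivOfLe M23_le_M24)

/-! ### words and tables -/

theorem coe_ev' (w : List ℕ) :
    ((ev ga gb w : ↥Cfsg.M24) : Equiv.Perm GolayPt) = permOf (evT Ta Tai Tb Tbi w) := by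
  rw [coe_ev]
  exact ev_permOf (isPerm_of_inM24 tabsOK.1) (isPerm_of_inM24 tabsOK.2.1)
    (isPerm_of_inM24 tabsOK.2.2.1) (isPerm_of_inM24 tabsOK.2.2.2) invOK.1 invOK.2 w

theorem isPerm_ev (w : List ℕ) : isPerm (evT Ta Tai Tb Tbi w) = true :=
  isPerm_evT (isPerm_of_inM24 tabsOK.1) (isPerm_of_inM24 tabsOK.2.1)
    (isPerm_of_inM24 tabsOK.2.2.1) (isPerm_of_inM24 tabsOK.2.2.2) w

theorem isPerm_col (l : ℕ) : isPerm (colsT Ta Tai Tb Tbi l) = true :=
  isPerm_colsT (isPerm_of_inM24 tabsOK.1) (isPerm_of_inM24 tabsOK.2.1)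
    (isPerm_of_inM24 tabsOK.2.2.1) (isPerm_of_inM24 tabsOK.2.2.2) l

theorem coe_cols' (l : ℕ) :
    ((cols ga gb l : ↥Cfsg.M24) : Equiv.Perm GolayPt) = permOf (colsT Ta Tai Tb Tbi l) := by
  have h := cols_permOf (isPerm_of_inM24 tabsOK.1) (isPerm_of_inM24 tabsOK.2.1)
    (isPerm_of_inM24 tabsOK.2.2.1) (isPerm_of_inM24 tabsOK.2.2.2) invOK.1 invOK.2 l
  rw [← h]
  rcases l with _ | _ | _ | _ | l <;> rfl

theorem relT : ∀ r ∈ relsL, evT Ta Tai Tb Tbi r = idT := by decide +kernel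

theorem cwT : evT Ta Tai Tb Tbi (cw CAL) = Ta ∧ evT Ta Tai Tb Tbi (cw CBL) = Tb := by
  decide +kernel

theorem hR : ∀ r ∈ relsL, ev ga gb r = 1 := by
  intro r hr
  apply Subtype.ext
  rw [coe_ev', relT r hr, permOf_idT]
  rfl

theorem hCA : cev ga gb CAL = ga := by
  rw [← ev_cw]
  apply Subtype.ext
  rw [coe_ev', cwT.1]
  rfl

theorem hCB : cev ga gb CBL = gb := by
  rw [← ev_cw]
  apply Subtype.ext
  rw [coe_ev', cwT.2]
  rfl

/-! ### the coset data -/

/-- the representatives -/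
def tF (c : ℕ) : List ℕ := wordF twN c

set_option maxRecDepth 1000000 in
theorem chkII : (List.range nC).all (fun c => (List.range 4).all fun l =>
    permMask (tf (colsT Ta Tai Tb Tbi l)) (maskF dmN (tabF tabN c l)) == maskF dmN c) = true := by
  decide +kernel

set_option maxRecDepth 1000000 in
theorem chkIII : (List.range nC).all (fun c => (maskF dmN c != Dm || c == 0)) = true := by
  decide +kernel

theorem chk0' : tF 0 = [] ∧ maskF dmN 0 = Dm := by decide +kernel

set_option maxRecDepth 1000000 in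
theorem hpar : parOK nC tF (tabF tabN) (parF parN) = true := by decide +kernel

set_option maxRecDepth 1000000 in
theorem h1 : tabOK nC (tabF tabN) = true := by decide +kernel

set_option maxRecDepth 1000000 in
theorem h2 : treeOK nC tF (tabF tabN) (tmF tmN) = true := by decide +kernel

theorem h3 : wordsOK relsL = true := by decide +kernel

theorem h3' : wordsOK [cw CAL ++ [1], cw CBL ++ [3]] = true := by decide +kernel

set_option maxRecDepth 1000000 in
theorem h4 : basisL.all (fun cj => eqnOK (tabF tabN) (tmF tmN) nC relsL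
    [cw CAL ++ [1], cw CBL ++ [3]] cj.1 cj.2) = true := by decide +kernel

theorem h6 : (decCert cert0).map Prod.fst =
    (List.range (2 * nC)).filter (fun e => !tmF tmN e) := by
  rw [decCert_fst]
  decide +kernel

theorem smul_col {c : ℕ} (hc : c < nC) {l : ℕ} (hl : l < 4) :
    ((cols ga gb l : ↥Cfsg.M24) : Equiv.Perm GolayPt) • toSet (maskF dmN (tabF tabN c l)) =
      toSet (maskF dmN c) := by
  have e2 := List.all_eq_true.1 (List.all_eq_true.1 chkII c (List.mem_range.2 hc)) l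
    (List.mem_range.2 hl)
  rw [coe_cols', smul_toSet_permOf (isPerm_col l), beq_iff_eq.1 e2]

theorem smul_rep : ∀ c < nC,
    ((ev ga gb (tF c) : ↥Cfsg.M24) : Equiv.Perm GolayPt) • toSet (maskF dmN c) = toSet Dm := by
  apply tree_induction hpar
  · rw [chk0'.1, chk0'.2, ev_nil]
    exact one_smul _ _
  · intro p hp l hl _ ht hP
    rw [ht, ev_append, ev_cons, ev_nil, mul_one, Subgroup.coe_mul, mul_smul, smul_col hp hl, hP]

theorem hS : ∀ c < nC, ∀ l < 4,
    ev ga gb (tF c) * cols ga gb l * (ev ga gb (tF (tabF tabN c l)))⁻¹ ∈ H24 := by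
  intro c hc l hl
  have hc' : tabF tabN c l < nC := tabOK_lt h1 c hc l hl
  rw [mem_H24, Subgroup.coe_mul, Subgroup.coe_mul, Subgroup.coe_inv, mul_smul, mul_smul]
  have e1 : ((ev ga gb (tF (tabF tabN c l)) : ↥Cfsg.M24) : Equiv.Perm GolayPt)⁻¹ • toSet Dm =
      toSet (maskF dmN (tabF tabN c l)) := by
    rw [inv_smul_eq_iff, smul_rep _ hc']
  rw [e1, smul_col hc hl, smul_rep c hc]

theorem hT : ∀ c < nC, ev ga gb (tF c) ∈ H24 → c = 0 := by
  intro c hc hmem
  rw [mem_H24] at hmem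
  have h := smul_left_cancel _ ((smul_rep c hc).trans hmem.symm)
  have e := List.all_eq_true.1 chkIII c (List.mem_range.2 hc)
  rw [Bool.or_eq_true, bne_iff_ne, beq_iff_eq] at e
  have := toSet_inj (maskF_lt dmN c) DmOK h
  rcases e with e' | e'
  · exact absurd this e'
  · exact e'

/-! ### generation -/

/-- the generators of `M₂₃` as words in those of `M₂₄` -/
theorem w23T : evT Ta Tai Tb Tbi W1L = Cfsg.Agent.Helper17.SchurCos.M23.Ta ∧
    evT Ta Tai Tb Tbi W2L = Cfsg.Agent.Helper17.SchurCos.M23.Tb := by decide +kernel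

theorem cover : ∀ q : GolayPt, ∃ c, c < nC ∧ toSet (maskF dmN c) = {q} := by decide +kernel

theorem M24_le : Cfsg.M24 ≤ Subgroup.closure {permOf Ta, permOf Tb} := by
  set S := Subgroup.closure ({permOf Ta, permOf Tb} : Set (Equiv.Perm GolayPt)) with hS
  have hev : ∀ w, ev (permOf Ta) (permOf Tb) w ∈ S := by
    intro w
    induction w with
    | nil => rw [ev_nil]; exact S.one_mem
    | cons l w ih =>
      rw [ev_cons]
      refine S.mul_mem ?_ ih
      rcases l with _ | _ | _ | _ | l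
      · show permOf Ta ∈ S
        exact Subgroup.subset_closure (Or.inl rfl)
      · show (permOf Ta)⁻¹ ∈ S
        exact S.inv_mem (Subgroup.subset_closure (Or.inl rfl))
      · show permOf Tb ∈ S
        exact Subgroup.subset_closure (Or.inr rfl)
      · show (permOf Tb)⁻¹ ∈ S
        exact S.inv_mem (Subgroup.subset_closure (Or.inr rfl))
      · show (1 : Equiv.Perm GolayPt) ∈ S
        exact S.one_mem
  have hperm := fun w => ev_permOf (isPerm_of_inM24 tabsOK.1) (isPerm_of_inM24 tabsOK.2.1)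
    (isPerm_of_inM24 tabsOK.2.2.1) (isPerm_of_inM24 tabsOK.2.2.2) invOK.1 invOK.2 w
  have hα : permOf Cfsg.Agent.Helper17.SchurCos.M23.Ta ∈ S := by
    rw [← w23T.1, ← hperm]
    exact hev _
  have hβ : permOf Cfsg.Agent.Helper17.SchurCos.M23.Tb ∈ S := by
    rw [← w23T.2, ← hperm]
    exact hev _
  have h23 : Spor.M23 ≤ S := by
    refine Cfsg.Agent.Helper17.SchurCos.M23.M23_le.trans ?_
    rw [Subgroup.closure_le]
    rintro x (rfl | rfl)
    · exact hα
    · exact hβ
  intro g hg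
  obtain ⟨c, hc, hq⟩ := cover (g⁻¹ none)
  have hP := smul_rep c hc
  rw [hq, toSet_Dm, Finset.smul_finset_singleton, Finset.singleton_inj] at hP
  have hmem : ((ev ga gb (tF c) : ↥Cfsg.M24) : Equiv.Perm GolayPt) * g⁻¹ ∈ Spor.M23 :=
    (Cfsg.Agent.Helper17.SchurCos.M23.mem_M23 _).2
      ⟨Cfsg.M24.mul_mem (ev ga gb (tF c)).2 (Cfsg.M24.inv_mem hg), hP⟩
  have h1 := h23 hmem
  have hPS : ((ev ga gb (tF c) : ↥Cfsg.M24) : Equiv.Perm GolayPt) ∈ S := by
    rw [coe_ev]
    exact hev _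
  have e : g = (((ev ga gb (tF c) : ↥Cfsg.M24) : Equiv.Perm GolayPt) * g⁻¹)⁻¹ *
      ((ev ga gb (tF c) : ↥Cfsg.M24) : Equiv.Perm GolayPt) := by group
  rw [e]
  exact S.mul_mem (S.inv_mem h1) hPS

theorem hgen : Subgroup.closure {ga, gb} = ⊤ := by
  rw [eq_top_iff]
  intro g _
  have h1 : (g : Equiv.Perm GolayPt) ∈ (Subgroup.closure {ga, gb}).map Cfsg.M24.subtype := by
    rw [MonoidHom.map_closure, Set.image_pair]
    exact M24_le g.2
  obtain ⟨g', hg', e⟩ := Subgroup.mem_map.1 h1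
  have : g' = g := Subtype.ext e
  rwa [this] at hg'

/-- all finite stem extensions of `M₂₄` are injective -/
theorem stem_M24 : StemTrivial ↥Cfsg.M24 := by
  intro Γ _ _ σ hσ
  exact ker_eq_bot_of_cert σ hσ H24 stem_H24 ga gb hgen CAL CBL hCA hCB relsL hR nC tF
    (tabF tabN) (tmF tmN) chk0'.1 (by decide) hS hT BB basisL (decCert cert0) h1 h2 h3 h3' h4 chk0 h6

/-- the Schur multiplier of `M₂₄` is trivial -/
theorem schur_M24 : Cfsg.HasCyclicSchurMultiplier ↥Cfsg.M24 1 :=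
  Cfsg.Agent.Helper17.J1.hasCyclicSchurMultiplier_one stem_M24

end Cfsg.Agent.Helper17.SchurCos.M24
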