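import Mathlib
import Cfsg.Prelude.Def_KGroupFacts
import Cfsg.Agent.Helper17.L27.ConcA6
import Cfsg.Agent.Helper17.SchurCos.An6Cov

/-!
# The Schur multiplier of `SL₂(9)` is cyclic of order three (helper17)

`SL₂(9)` is a stem extension of `PSL₂(9) ≅ A₆` with kernel of order two.

* A stem extension of `SL₂(9)` is a stem extension of `A₆`, whose kernel is cyclic of order
  dividing six and contains the kernel of the given extension with index two.
* The commutator subgroup of the fibre product over `A₆` of the sixfold cover of `A₆` and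
  `SL₂(9)` is a stem extension of `SL₂(9)` with kernel of order three.
-/

set_option autoImplicit false

namespace Cfsg.Agent.Helper17.SchurCos.SL29

open Cfsg Cfsg.Agent.Helper17 Cfsg.Agent.Helper17.J1 Cfsg.Agent.Helper17.SchurCos Matrix

universe u v w

section Generic

/-- a surjection onto a perfect group maps the commutator subgroup onto it -/
theorem exists_mem_commutator_map {P : Type u} {T : Type v} [Group P] [Group T] (f : P →* T)
    (hf : Function.Surjective f) (hT : commutator T = ⊤) (t : T) :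
    ∃ d ∈ commutator P, f d = t := by
  have hmap : (commutator P).map f = ⊤ := by
    rw [commutator_def, Subgroup.map_commutator, Subgroup.map_top_of_surjective f hf,
      ← commutator_def, hT]
  have ht : t ∈ (commutator P).map f := by rw [hmap]; exact Subgroup.mem_top t
  obtain ⟨d, hd, e⟩ := Subgroup.mem_map.1 ht
  exact ⟨d, hd, e⟩

/-- a stem extension of a perfect group is perfect -/
theorem perfect_of_stem {E : Type u} {G : Type v} [Group E] [Group G] (σ : E →* G)
    (hσ : Cfsg.IsStemExtension σ) (hG : commutator G = ⊤) : commutator E = ⊤ := by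
  obtain ⟨hs, hc, hd⟩ := hσ
  rw [eq_top_iff]
  intro e _
  obtain ⟨c, hc', hce⟩ := exists_mem_commutator_map σ hs hG (σ e)
  have hk : c⁻¹ * e ∈ σ.ker := by
    rw [MonoidHom.mem_ker, map_mul, map_inv, hce, inv_mul_cancel]
  have := (commutator E).mul_mem hc' (hd hk)
  rwa [mul_inv_cancel_left] at this

/-- in a perfect group, an element whose conjugates differ from it by central elements is
central -/
theorem central_of_comm_central {E : Type u} [Group E] (hE : commutator E = ⊤) (k : E)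
    (hk : ∀ g : E, k⁻¹ * g * k * g⁻¹ ∈ Subgroup.center E) : k ∈ Subgroup.center E := by
  let c : E →* E := MonoidHom.mk' (fun g => k⁻¹ * g * k * g⁻¹) (by
    intro g h
    have hh := Subgroup.mem_center_iff.1 (hk h)
    have e1 : k⁻¹ * (g * h) * k * (g * h)⁻¹ =
        k⁻¹ * g * k * ((k⁻¹ * h * k * h⁻¹) * g⁻¹) := by group
    rw [e1, ← hh g⁻¹]
    group)
  have hc : ∀ g : E, c g = k⁻¹ * g * k * g⁻¹ := fun g => rfl
  have hker : commutator E ≤ c.ker := by
    rw [commutator_def, Subgroup.commutator_le]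
    intro g _ h _
    rw [MonoidHom.mem_ker, map_commutatorElement, commutatorElement_eq_one_iff_mul_comm]
    exact Subgroup.mem_center_iff.1 (hk h) (c g)
  rw [Subgroup.mem_center_iff]
  intro g
  have hg : c g = 1 := MonoidHom.mem_ker.1 (hker (by rw [hE]; exact Subgroup.mem_top g))
  rw [hc] at hg
  calc g * k = k * (k⁻¹ * g * k * g⁻¹) * g := by group
    _ = k * g := by rw [hg, mul_one]

/-- composing a stem extension of a perfect group with a central quotient map gives a stem
extension -/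
theorem stem_comp {E : Type u} {G : Type v} {Q : Type w} [Group E] [Group G] [Group Q]
    (σ : E →* G) (hσ : Cfsg.IsStemExtension σ) (ρ : G →* Q) (hρs : Function.Surjective ρ)
    (hρ : ρ.ker ≤ Subgroup.center G) (hG : commutator G = ⊤) :
    Cfsg.IsStemExtension (ρ.comp σ) := by
  have hE := perfect_of_stem σ hσ hG
  obtain ⟨hs, hc, hd⟩ := hσ
  refine ⟨hρs.comp hs, ?_, ?_⟩
  · intro k hk
    apply central_of_comm_central hE
    intro g
    apply hc
    have hz : σ k ∈ Subgroup.center G := hρ (MonoidHom.mem_ker.2 (MonoidHom.mem_ker.1 hk))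
    have hcm := Subgroup.mem_center_iff.1 hz (σ g)
    rw [MonoidHom.mem_ker, map_mul, map_mul, map_mul, map_inv, map_inv, mul_assoc (σ k)⁻¹, hcm,
      inv_mul_cancel_left, mul_inv_cancel]
  · intro k _
    rw [hE]
    exact Subgroup.mem_top k

/-- stem extensions transport along isomorphisms of the source -/
theorem stem_of_mulEquiv {E : Type u} {E' : Type v} {G : Type w} [Group E] [Group E'] [Group G]
    (e : E' ≃* E) (σ : E →* G) (hσ : Cfsg.IsStemExtension σ) :
    Cfsg.IsStemExtension (σ.comp e.toMonoidHom) := by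
  obtain ⟨hs, hc, hd⟩ := hσ
  refine ⟨hs.comp e.surjective, ?_, ?_⟩
  · intro k hk
    have hk' : e k ∈ σ.ker := hk
    have hz := Subgroup.mem_center_iff.1 (hc hk')
    rw [Subgroup.mem_center_iff]
    intro g
    apply e.injective
    rw [map_mul, map_mul]
    exact hz (e g)
  · intro k hk
    have hk' : e k ∈ σ.ker := hk
    have hmap : (commutator E).map e.symm.toMonoidHom = commutator E' := by
      rw [commutator_def, Subgroup.map_commutator,
        Subgroup.map_top_of_surjective e.symm.toMonoidHom e.symm.surjective, ← commutator_def]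
    have h2 : e.symm (e k) ∈ (commutator E).map e.symm.toMonoidHom :=
      Subgroup.mem_map_of_mem e.symm.toMonoidHom (hd hk')
    rw [hmap, e.symm_apply_apply] at h2
    exact h2

/-- the kernel of a finite stem extension of `A₆`, in any universe, is generated by an element
of order dividing six -/
theorem upper_any {E : Type u} [Group E] [Finite E] (ρ : E →* ↥(alternatingGroup (Fin 6)))
    (hρ : Cfsg.IsStemExtension ρ) :
    ∃ w ∈ ρ.ker, w ^ 6 = 1 ∧ ∀ k ∈ ρ.ker, k ∈ Subgroup.zpowers w := by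
  let e : Shrink.{0} E ≃* E := Shrink.mulEquiv
  have hfin : Finite (Shrink.{0} E) := Finite.of_equiv E (equivShrink.{0} E)
  have hst := stem_of_mulEquiv e ρ hρ
  obtain ⟨π, hπ⟩ := An6.upper (Shrink.{0} E) (ρ.comp e.toMonoidHom) hst
  have hall6 : ∀ x : Multiplicative (ZMod 6),
      x = (Multiplicative.ofAdd (1 : ZMod 6)) ^ (Multiplicative.toAdd x).val := by decide
  have h16 : (Multiplicative.ofAdd (1 : ZMod 6)) ^ 6 = 1 := by decide
  obtain ⟨w0, hw0⟩ : ∃ w0, w0 = π (Multiplicative.ofAdd 1) := ⟨_, rfl⟩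
  have hw06 : w0 ^ 6 = 1 := by rw [hw0, ← map_pow, h16, map_one]
  refine ⟨e w0.1, w0.2, ?_, ?_⟩
  · have h2 : (w0.1) ^ 6 = 1 := by
      have := congrArg Subtype.val hw06
      rw [Subgroup.coe_pow] at this
      exact this
    rw [← map_pow, h2, map_one]
  · intro k hk
    have hk0 : e.symm k ∈ (ρ.comp e.toMonoidHom).ker := by
      rw [MonoidHom.mem_ker]
      show ρ (e (e.symm k)) = 1
      rw [e.apply_symm_apply]
      exact MonoidHom.mem_ker.1 hk
    obtain ⟨x, hx⟩ := hπ ⟨e.symm k, hk0⟩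
    rw [Subgroup.mem_zpowers_iff]
    refine ⟨((Multiplicative.toAdd x).val : ℤ), ?_⟩
    have h3 : w0 ^ (Multiplicative.toAdd x).val = ⟨e.symm k, hk0⟩ := by
      rw [hw0, ← map_pow, ← hall6 x, hx]
    have h4 := congrArg Subtype.val h3
    rw [Subgroup.coe_pow] at h4
    rw [zpow_natCast, ← map_pow, h4, e.apply_symm_apply]

/-- the commutator subgroup of a fibre product of a stem extension `X → A` with cyclic-like
kernel and a central extension `S → A` by elements of order two is a stem extension of `S`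
with kernel of order three, given that the kernels of the stem extensions of `S` are quotients
of the cyclic group of order three -/
theorem exists_stem_of_fibre {X : Type} [Group X] [Finite X] {A : Type} [Group A] {S : Type u}
    [Group S] [Finite S] (σ6 : X →* A) (hσ6 : Cfsg.IsStemExtension σ6) (k : X)
    (hk : k ∈ σ6.ker) (hk2 : k ^ 2 ≠ 1) (ρ : S →* A) (hρs : Function.Surjective ρ)
    (hρ2 : ∀ s ∈ ρ.ker, s ∈ Subgroup.center S ∧ s ^ 2 = 1)
    (hS : commutator S = ⊤) (hA : commutator A = ⊤)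
    (hup : ∀ (E : Type u) [Group E] [Finite E] (τ : E →* S), Cfsg.IsStemExtension τ →
      ∃ π : Multiplicative (ZMod 3) →* τ.ker, Function.Surjective π) :
    ∃ (Γ : Type u) (_ : Group Γ) (_ : Finite Γ) (τ : Γ →* S),
      Cfsg.IsStemExtension τ ∧ Nonempty (τ.ker ≃* Multiplicative (ZMod 3)) := by
  have hX : commutator X = ⊤ := perfect_of_stem σ6 hσ6 hA
  obtain ⟨hs6, hc6, hd6⟩ := hσ6
  let P : Subgroup (X × S) :=
    (σ6.comp (MonoidHom.fst X S)).eqLocus (ρ.comp (MonoidHom.snd X S))
  have hP : ∀ x : X × S, x ∈ P ↔ σ6 x.1 = ρ x.2 := fun x => Iff.rfl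
  let p1 : ↥P →* X := (MonoidHom.fst X S).comp P.subtype
  let p2 : ↥P →* S := (MonoidHom.snd X S).comp P.subtype
  let q : ↥P →* A := σ6.comp p1
  have hp1 : Function.Surjective p1 := by
    intro x
    obtain ⟨s, hs⟩ := hρs (σ6 x)
    exact ⟨⟨(x, s), (hP _).2 hs.symm⟩, rfl⟩
  have hp2 : Function.Surjective p2 := by
    intro s
    obtain ⟨x, hx⟩ := hs6 (ρ s)
    exact ⟨⟨(x, s), (hP _).2 hx⟩, rfl⟩
  have hq : Function.Surjective q := hs6.comp hp1
  have hqk : q.ker ≤ Subgroup.center ↥P := by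
    intro x hx
    have h1 : σ6 x.1.1 = 1 := MonoidHom.mem_ker.1 hx
    have h2 : ρ x.1.2 = 1 := by rw [← (hP x.1).1 x.2]; exact h1
    have c1 := Subgroup.mem_center_iff.1 (hc6 (MonoidHom.mem_ker.2 h1))
    have c2 := Subgroup.mem_center_iff.1 (hρ2 _ (MonoidHom.mem_ker.2 h2)).1
    rw [Subgroup.mem_center_iff]
    intro g
    apply Subtype.ext
    exact Prod.ext (c1 g.1.1) (c2 g.1.2)
  let D : Subgroup ↥P := commutator ↥P
  have hDperf : D ≤ ⁅D, D⁆ := by
    show commutator ↥P ≤ ⁅D, D⁆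
    rw [commutator_def, Subgroup.commutator_le]
    intro g _ h _
    obtain ⟨d1, hd1, e1⟩ := exists_mem_commutator_map q hq hA (q g)
    obtain ⟨d2, hd2, e2⟩ := exists_mem_commutator_map q hq hA (q h)
    rw [commutatorElement_def, comm_eq_of_map_eq q hqk e1.symm e2.symm, ← commutatorElement_def]
    exact Subgroup.commutator_mem_commutator hd1 hd2
  have htop : commutator ↥D = ⊤ := by
    rw [eq_top_iff]
    intro d _
    have hmap : (commutator ↥D).map D.subtype = ⁅D, D⁆ := by
      rw [commutator_def, Subgroup.map_commutator, ← MonoidHom.range_eq_map,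
        Subgroup.range_subtype]
    have hd1 : d.1 ∈ (commutator ↥D).map D.subtype := by
      rw [hmap]
      exact hDperf d.2
    obtain ⟨d', hd', e⟩ := Subgroup.mem_map.1 hd1
    have : d' = d := Subtype.ext e
    rwa [this] at hd'
  let τ : ↥D →* S := p2.comp D.subtype
  have hτs : Function.Surjective τ := by
    intro s
    obtain ⟨d, hd, e⟩ := exists_mem_commutator_map p2 hp2 hS s
    exact ⟨⟨d, hd⟩, e⟩
  have hτc : τ.ker ≤ Subgroup.center ↥D := by
    intro d hd
    have h2 : p2 d.1 = 1 := MonoidHom.mem_ker.1 hd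
    have hdq : d.1 ∈ q.ker := by
      rw [MonoidHom.mem_ker]
      show σ6 d.1.1.1 = 1
      rw [(hP d.1.1).1 d.1.2]
      show ρ (p2 d.1) = 1
      rw [h2, map_one]
    have hz := Subgroup.mem_center_iff.1 (hqk hdq)
    rw [Subgroup.mem_center_iff]
    intro g
    exact Subtype.ext (hz g.1)
  have hτ : Cfsg.IsStemExtension τ :=
    ⟨hτs, hτc, fun d _ => by rw [htop]; exact Subgroup.mem_top d⟩
  obtain ⟨π3, hπ3⟩ := hup ↥D τ hτ
  -- a nontrivial element of the kernel
  obtain ⟨d, hd, e⟩ := exists_mem_commutator_map p1 hp1 hX k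
  have hds : ρ (p2 d) = 1 := by
    have h1 := (hP d.1).1 d.2
    show ρ d.1.2 = 1
    rw [← h1]
    show σ6 (p1 d) = 1
    rw [e]
    exact MonoidHom.mem_ker.1 hk
  have hs2 : p2 d ^ 2 = 1 := (hρ2 _ (MonoidHom.mem_ker.2 hds)).2
  have hd2k : (⟨d ^ 2, D.pow_mem hd 2⟩ : ↥D) ∈ τ.ker := by
    rw [MonoidHom.mem_ker]
    show p2 (d ^ 2) = 1
    rw [map_pow, hs2]
  have hx0 : (⟨⟨d ^ 2, D.pow_mem hd 2⟩, hd2k⟩ : τ.ker) ≠ 1 := by
    intro h
    apply hk2
    have h1 : d ^ 2 = 1 := congrArg (fun t : τ.ker => t.1.1) h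
    rw [← e, ← map_pow, h1, map_one]
  have hgen3 : ∀ x : Multiplicative (ZMod 3), x ≠ 1 → ∀ y : Multiplicative (ZMod 3),
      ∃ n : Fin 3, y = x ^ (n : ℕ) := by decide
  have hinj : Function.Injective π3 := by
    rw [injective_iff_map_eq_one]
    intro x hx
    by_contra hne
    obtain ⟨y0, hy0⟩ := hπ3 ⟨⟨d ^ 2, D.pow_mem hd 2⟩, hd2k⟩
    obtain ⟨n, rfl⟩ := hgen3 x hne y0
    rw [map_pow, hx, one_pow] at hy0
    exact hx0 hy0.symm
  exact ⟨↥D, inferInstance, inferInstance, τ, hτ,
    ⟨(MulEquiv.ofBijective π3 ⟨hinj, hπ3⟩).symm⟩⟩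

end Generic

/-! ### The special linear group -/

section SL

variable {F : Type u} [Field F]

/-- central elements of `SL₂` have square one -/
theorem center_sq (x : SpecialLinearGroup (Fin 2) F)
    (hx : x ∈ Subgroup.center (SpecialLinearGroup (Fin 2) F)) : x ^ 2 = 1 := by
  rw [Matrix.SpecialLinearGroup.mem_center_iff] at hx
  obtain ⟨r, hr, hx2⟩ := hx
  have hr2 : r * r = 1 := by
    rw [Fintype.card_fin] at hr
    rw [← sq]
    exact hr
  apply Subtype.ext
  rw [pow_two]
  show (x : Matrix (Fin 2) (Fin 2) F) * (x : Matrix (Fin 2) (Fin 2) F) = 1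
  rw [← hx2, ← map_mul, hr2, map_one]

/-- a nontrivial central element of `SL₂` in odd characteristic -/
theorem exists_center_ne_one (h2 : (2 : F) ≠ 0) :
    ∃ c ∈ Subgroup.center (SpecialLinearGroup (Fin 2) F), c ≠ 1 := by
  have hdet : (Matrix.scalar (Fin 2) (-1 : F)).det = 1 := by
    simp
  obtain ⟨c, hcv⟩ : ∃ c : SpecialLinearGroup (Fin 2) F,
      (c : Matrix (Fin 2) (Fin 2) F) = Matrix.scalar (Fin 2) (-1 : F) :=
    ⟨⟨Matrix.scalar (Fin 2) (-1 : F), hdet⟩, rfl⟩
  refine ⟨c, ?_, ?_⟩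
  · exact Matrix.SpecialLinearGroup.mem_center_iff.2 ⟨-1, by simp, hcv.symm⟩
  · intro h
    have h00 : (c : Matrix (Fin 2) (Fin 2) F) 0 0 = (1 : Matrix (Fin 2) (Fin 2) F) 0 0 := by
      rw [h]
      rfl
    rw [hcv] at h00
    simp at h00
    apply h2
    linear_combination (-1 : F) * h00

variable [Fintype F]

theorem two_ne_zero_of_card (hF : Fintype.card F = 9) : (2 : F) ≠ 0 := by
  have h9 : ((9 : ℕ) : F) = 0 := by
    rw [← hF]
    exact FiniteField.cast_card_eq_zero F
  have h3 : (3 : F) = 0 := by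
    have : (3 : F) * 3 = 0 := by
      have e : (3 : F) * 3 = ((9 : ℕ) : F) := by norm_num
      rw [e, h9]
    exact mul_self_eq_zero.1 this
  intro h
  have : (1 : F) = 0 := by linear_combination h3 - h
  exact one_ne_zero this

theorem sl_perfect (hF : Fintype.card F = 9) :
    commutator (SpecialLinearGroup (Fin 2) F) = ⊤ := by
  obtain ⟨ι, hι⟩ := (FiniteField.isSquare_neg_one_iff (F := F)).2 (by rw [hF]; decide)
  have h2 := two_ne_zero_of_card hF
  apply Matrix.SL2.commutator_eq_top (a := ι)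
  · rintro rfl
    simp at hι
  · intro h
    apply h2
    have h' : ι ^ 2 = -1 := by rw [sq]; exact hι.symm
    linear_combination h' - h

theorem A6_perfect : commutator ↥(alternatingGroup (Fin 6)) = ⊤ := by
  rw [eq_top_iff, ← An6.hgen, Subgroup.closure_le]
  rintro g (rfl | rfl)
  · have h := cev_mem_commutator An6.gA An6.gB An6.CAL
    rw [← ev_cw, An6.F2.1] at h
    exact h
  · have h := cev_mem_commutator An6.gA An6.gB An6.CBL
    rw [← ev_cw, An6.F2.2] at h
    exact h

/-- the central quotient map from `SL₂(9)` onto `A₆` -/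
theorem exists_rho (hF : Fintype.card F = 9) :
    ∃ ρ : SpecialLinearGroup (Fin 2) F →* ↥(alternatingGroup (Fin 6)),
      Function.Surjective ρ ∧
      ∀ s, ρ s = 1 ↔ s ∈ Subgroup.center (SpecialLinearGroup (Fin 2) F) := by
  obtain ⟨ι⟩ := L27.psl29_iso_A6 hF
  let π0 : SpecialLinearGroup (Fin 2) F →* ProjectiveSpecialLinearGroup (Fin 2) F :=
    QuotientGroup.mk' _
  refine ⟨ι.toMonoidHom.comp π0, ι.surjective.comp (QuotientGroup.mk'_surjective _), ?_⟩
  intro s
  show ι (π0 s) = 1 ↔ _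
  rw [MulEquiv.map_eq_one_iff]
  exact QuotientGroup.eq_one_iff s

/-- the kernel of every finite stem extension of `SL₂(9)` is a quotient of the cyclic group of
order three -/
theorem upper (hF : Fintype.card F = 9) (E : Type u) [Group E] [Finite E]
    (σ : E →* SpecialLinearGroup (Fin 2) F) (hσ : Cfsg.IsStemExtension σ) :
    ∃ π : Multiplicative (ZMod 3) →* σ.ker, Function.Surjective π := by
  obtain ⟨ρ, hρs, hρk⟩ := exists_rho hF
  have hρ : ρ.ker ≤ Subgroup.center _ := fun s hs => (hρk s).1 (MonoidHom.mem_ker.1 hs)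
  have hst := stem_comp σ hσ ρ hρs hρ (sl_perfect hF)
  obtain ⟨w, hw, hw6, hall⟩ := upper_any (ρ.comp σ) hst
  have hwc : σ w ∈ Subgroup.center _ := (hρk _).1 (MonoidHom.mem_ker.1 hw)
  have hw2 : σ w ^ 2 = 1 := center_sq _ hwc
  have hne : σ w ≠ 1 := by
    intro h1
    obtain ⟨c, hc, hc1⟩ := exists_center_ne_one (two_ne_zero_of_card hF)
    obtain ⟨e, rfl⟩ := hσ.1 c
    have he : e ∈ (ρ.comp σ).ker := by
      rw [MonoidHom.mem_ker]
      exact (hρk _).2 hc
    obtain ⟨j, rfl⟩ := Subgroup.mem_zpowers_iff.1 (hall e he)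
    apply hc1
    rw [map_zpow, h1, _root_.one_zpow]
  have : Fact (Nat.Prime 2) := ⟨Nat.prime_two⟩
  have ho : orderOf (σ w) = 2 := orderOf_eq_prime hw2 hne
  have hwk : w ^ 2 ∈ σ.ker := by rw [MonoidHom.mem_ker, map_pow, hw2]
  refine exists_surj_zmod_of_zpowers 3 (⟨w ^ 2, hwk⟩ : σ.ker) (Subtype.ext ?_) (fun k => ?_)
  · show (w ^ 2) ^ 3 = 1
    rw [← pow_mul]
    exact hw6
  · have hk : k.1 ∈ (ρ.comp σ).ker := by
      rw [MonoidHom.mem_ker]
      show ρ (σ k.1) = 1
      rw [MonoidHom.mem_ker.1 k.2, map_one]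
    obtain ⟨j, hj⟩ := Subgroup.mem_zpowers_iff.1 (hall k.1 hk)
    have h1 : σ w ^ j = 1 := by
      rw [← map_zpow, hj]
      exact MonoidHom.mem_ker.1 k.2
    have h2 : (2 : ℤ) ∣ j := by
      have h3 := orderOf_dvd_iff_zpow_eq_one.2 h1
      rw [ho] at h3
      exact_mod_cast h3
    obtain ⟨j', rfl⟩ := h2
    refine Subgroup.mem_zpowers_iff.2 ⟨j', Subtype.ext ?_⟩
    rw [Subgroup.coe_zpow]
    show (w ^ 2) ^ j' = k.1
    rw [← hj, _root_.zpow_mul, zpow_ofNat]

/-- a finite stem extension of `SL₂(9)` with kernel of order three -/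
theorem lower (hF : Fintype.card F = 9) :
    ∃ (Γ : Type u) (_ : Group Γ) (_ : Finite Γ) (τ : Γ →* SpecialLinearGroup (Fin 2) F),
      Cfsg.IsStemExtension τ ∧ Nonempty (τ.ker ≃* Multiplicative (ZMod 3)) := by
  obtain ⟨ρ, hρs, hρk⟩ := exists_rho hF
  have hρ : ρ.ker ≤ Subgroup.center _ := fun s hs => (hρk s).1 (MonoidHom.mem_ker.1 hs)
  obtain ⟨X, _, _, σ6, hσ6, ⟨e6⟩⟩ := An6.lower
  have hfin : Finite (SpecialLinearGroup (Fin 2) F) :=
    Finite.of_injective (fun A : SpecialLinearGroup (Fin 2) F => A.1) Subtype.val_injective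
  obtain ⟨kk, hkk⟩ : ∃ kk : σ6.ker, kk = e6.symm (Multiplicative.ofAdd 1) := ⟨_, rfl⟩
  have hkk2 : kk ^ 2 ≠ 1 := by
    intro h
    have h1 : e6 (kk ^ 2) = 1 := by rw [h, map_one]
    rw [map_pow, hkk, e6.apply_symm_apply] at h1
    exact absurd h1 (by decide)
  exact exists_stem_of_fibre σ6 hσ6 kk.1 kk.2
    (fun h => hkk2 (Subtype.ext (by rw [Subgroup.coe_pow]; exact h))) ρ hρs
    (fun s hs => ⟨hρ hs, center_sq _ (hρ hs)⟩) (sl_perfect hF) A6_perfect
    (fun E _ _ τ hτ => upper hF E τ hτ)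

/-- the Schur multiplier of `SL₂(9)` is cyclic of order three -/
theorem schur (hF : Fintype.card F = 9) :
    Cfsg.HasCyclicSchurMultiplier (SpecialLinearGroup (Fin 2) F) 3 :=
  ⟨lower hF, fun Γ _ _ σ hσ => upper hF Γ σ hσ⟩

end SL

end Cfsg.Agent.Helper17.SchurCos.SL29
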